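/-
Project SY: the fusion theorem with essential subgroups.
-/
import Cfsg.Agent.SY.Defs

set_option autoImplicit false

namespace CL.SY

open Subgroup Cfsg CL.Even CL.Grp

universe u

namespace Alp

variable {G : Type u} [Group G] [Finite G] {S : Subgroup G} {D : Set G}

/-- `g` respects `D` on `A` -/
def Φ (D : Set G) (A : Subgroup G) (g : G) : Prop := ∀ a ∈ A, (a ∈ D ↔ g * a * g⁻¹ ∈ D)

theorem card_lt {A B : Subgroup G} (h : A < B) : Nat.card A < Nat.card B :=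
  lt_of_le_of_ne (card_le_of_le h.le) fun e => h.ne (eq_of_le_of_card_ge h.le e.ge)

omit [Finite G] in
theorem of_norm {E : Subgroup G} (h : ∀ g ∈ 𝒩(E), ∀ a ∈ D, a ∈ E → g * a * g⁻¹ ∈ D) {g : G} (hg : g ∈ 𝒩(E)) :
    Φ D E g := fun a ha => ⟨fun k => h g hg a k ha, fun k => by
  simpa [mul_assoc] using h g⁻¹ (inv_mem hg) _ k (conj_mem hg ha)⟩

/-- the elements of the normaliser which respect `D` -/
def HH (D : Set G) (X : Subgroup G) : Subgroup G where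
  carrier := {m | m ∈ 𝒩(X) ∧ Φ D X m}
  one_mem' := ⟨one_mem _, fun a _ => by simp⟩
  mul_mem' := fun {g h} hg hh => ⟨mul_mem hg.1 hh.1, fun a ha => by
    rw [hh.2 a ha, hg.2 _ (conj_mem hh.1 ha)]
    simp [mul_assoc]⟩
  inv_mem' := fun {g} hg => ⟨inv_mem hg.1, fun a ha => by
    rw [hg.2 _ (conj_mem (inv_mem hg.1) ha)]
    simp [mul_assoc]⟩

theorem step1 (hS : IsSylowIn 2 S ⊤) (h1 : ∀ g ∈ 𝒩(S), ∀ a ∈ D, a ∈ S → g * a * g⁻¹ ∈ D)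
    (h2 : ∀ E H, Ess S E H → ∀ g ∈ 𝒩(E), ∀ a ∈ D, a ∈ E → g * a * g⁻¹ ∈ D) {X : Subgroup G} (hX : X ≤ S)
    (hlt : ¬ S ≤ X) (syl : IsSylowIn 2 (S ⊓ 𝒩(X)) 𝒩(X))
    (ih : ∀ B ≤ S, Nat.card X < Nat.card B → ∀ g, cj g B ≤ S → Φ D B g) {m : G} (hm : m ∈ 𝒩(X)) : Φ D X m := by
  have TH : S ⊓ 𝒩(X) ≤ HH D X := fun s hs => ⟨hs.2, fun a ha => of_norm h1 (le_normalizer hs.1) a (hX ha)⟩
  have CH : 𝒞(X) ≤ HH D X := fun c hc => ⟨cent_le_norm _ hc, fun a ha => by rw [conj_eq_of_mem hc ha]⟩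
  have XT : X ≤ S ⊓ 𝒩(X) := le_inf hX le_normalizer
  have Hle : HH D X ≤ 𝒩(X) := fun _ h => h.1
  by_contra hne
  have hne' : m ∉ HH D X := fun h => hne h.2
  by_cases hc : ∀ s ∈ S, (∀ x ∈ X, Commute s x) → s ∈ X
  · refine hne (of_norm (h2 X (HH D X) ⟨hX, hS.isPGroup, hc, syl, Hle, TH, CH, ⟨m, hm, hne'⟩, hlt, ?_⟩) hm)
    intro g hg hg' t ht ⟨k, hk⟩ ht'
    by_contra htX
    have pP : IsPGroup 2 (zpowers t ⊔ X : Subgroup G) :=
      isPGroup_sup (isPGroup_zpowers hk) (hS.isPGroup.to_le hX) (zpowers_le.2 ht.1)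
    have sH := syl.of_le TH Hle
    obtain ⟨h₁, m₁, k₁⟩ := sH.exists_conj_le pP (sup_le (zpowers_le.2 ht) (XT.trans TH))
    obtain ⟨h₂, m₂, k₂⟩ := sH.exists_conj_le (isPGroup_cj pP g⁻¹) (by
      rw [cj_sup, cj_eq (inv_mem hg), MonoidHom.map_zpowers]
      exact sup_le (zpowers_le.2 (by simpa using ht')) (XT.trans TH))
    change cj h₁ _ ≤ _ at k₁
    change cj h₂ _ ≤ _ at k₂
    have k₃ := ih _ (k₁.trans inf_le_left) (by
      rw [card_cj]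
      exact card_lt (lt_of_le_of_ne le_sup_right fun e => htX (e ▸ mem_sup_left (mem_zpowers t))))
      (h₂ * g⁻¹ * h₁⁻¹) (by
        rw [cj_mul, cj_mul, cj_inv_cj]
        exact k₂.trans inf_le_left)
    have k₄ : h₂ * g⁻¹ * h₁⁻¹ ∈ HH D X := ⟨mul_mem (mul_mem m₂.1 (inv_mem hg)) (inv_mem m₁.1), fun a ha =>
      k₃ a (mem_cj.2 (mem_sup_right (conj_mem' m₁.1 ha)))⟩
    rw [mul_mem_cancel_right (inv_mem m₁), mul_mem_cancel_left m₂, inv_mem_iff] at k₄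
    exact hg' k₄
  · push Not at hc
    obtain ⟨s, hs, hsc, hsX⟩ := hc
    have hsC : s ∈ 𝒞(X) := fun x hx => (hsc x hx).eq.symm
    have nN : 𝒩(X) ≤ 𝒩(X ⊔ 𝒞(X)) := le_norm_sup le_rfl (norm_le_norm_cent X)
    have sU := syl.inf_of_normalized (sup_le le_normalizer (cent_le_norm X)) nN
    obtain ⟨n, hn, k⟩ := sU.frattini nN hm
    have XU : X ≤ S ⊓ 𝒩(X) ⊓ (X ⊔ 𝒞(X)) := le_inf XT le_sup_left
    have k₃ := ih _ (inf_le_left.trans inf_le_left) (card_lt (lt_of_le_of_ne XU fun e => hsX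
      (e ▸ ⟨⟨hs, cent_le_norm _ hsC⟩, mem_sup_right hsC⟩))) (n * m)
      ((cj_eq k).le.trans (inf_le_left.trans inf_le_left))
    have nH : n ∈ HH D X := sup_le (XT.trans TH) CH hn
    have k₄ : n * m ∈ HH D X := ⟨mul_mem nH.1 hm, fun a ha => k₃ a (XU ha)⟩
    exact hne' ((mul_mem_cancel_left nH).1 k₄)

theorem step2 (hS : IsSylowIn 2 S ⊤) {X Y : Subgroup G} (syl : IsSylowIn 2 (S ⊓ 𝒩(X)) 𝒩(X)) (hY : Y < S) {h : G}
    (e : cj h Y = X) (ih : ∀ B ≤ S, Nat.card Y < Nat.card B → ∀ g, cj g B ≤ S → Φ D B g) :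
    ∃ k, cj k Y = X ∧ Φ D Y k := by
  have k1 := lt_inf_normalizer_of_isPGroup hS.isPGroup hY
  obtain ⟨n, hn, k2⟩ := syl.exists_conj_le (isPGroup_cj (hS.isPGroup.to_le (inf_le_left (b := 𝒩(Y)))) h) (by
    rw [← e, ← cj_norm]
    exact cj_mono h inf_le_right)
  change cj n _ ≤ _ at k2
  refine ⟨n * h, by rw [cj_mul, e, cj_eq hn], fun a ha => ?_⟩
  exact ih _ inf_le_left (card_lt k1) (n * h) (by rw [cj_mul]; exact k2.trans inf_le_left) a (k1.le ha)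

theorem main (hS : IsSylowIn 2 S ⊤) (h1 : ∀ g ∈ 𝒩(S), ∀ a ∈ D, a ∈ S → g * a * g⁻¹ ∈ D)
    (h2 : ∀ E H, Ess S E H → ∀ g ∈ 𝒩(E), ∀ a ∈ D, a ∈ E → g * a * g⁻¹ ∈ D) (n : ℕ) :
    ∀ A ≤ S, Nat.card S - Nat.card A = n → ∀ g, cj g A ≤ S → Φ D A g := by
  induction n using Nat.strong_induction_on with
  | _ n ih0 =>
  intro A hA hn g hg
  have ih : ∀ B ≤ S, Nat.card A < Nat.card B → ∀ g, cj g B ≤ S → Φ D B g := fun B hB hc =>
    ih0 _ (by have := card_le_of_le hB; omega) B hB rfl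
  rcases hA.eq_or_lt with rfl | hlt
  · exact of_norm h1 (mem_norm_of_cj_le hg)
  obtain ⟨P, hP⟩ := exists_isSylowIn 2 𝒩(A)
  have AP : A ≤ P := hP.le_of_normalized (hS.isPGroup.to_le hA) le_normalizer le_rfl
  obtain ⟨k, -, hk⟩ := hS.exists_conj_le hP.isPGroup le_top
  have hP' := hP.conj_smul k
  change cj k _ ≤ _ at hk
  change IsSylowIn 2 (cj k P) (cj k 𝒩(A)) at hP'
  rw [cj_norm] at hP'
  have syl : IsSylowIn 2 (S ⊓ 𝒩(cj k A)) 𝒩(cj k A) := by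
    rw [hP'.eq_of_le (hS.isPGroup.to_le inf_le_left) (le_inf hk hP'.le) inf_le_right]
    exact hP'
  have hX : cj k A ≤ S := (cj_mono k AP).trans hk
  have lt : ∀ x : G, ¬ S ≤ cj x A := fun x h => by
    have := card_le_of_le h
    rw [card_cj] at this
    exact (card_lt hlt).not_ge this
  obtain ⟨k₁, e₁, p₁⟩ := step2 hS syl hlt rfl ih
  obtain ⟨k₂, e₂, p₂⟩ := step2 (D := D) hS syl (lt_of_le_not_ge hg (lt g)) (h := k * g⁻¹)
    (by rw [cj_mul, cj_inv_cj]) (by rw [card_cj]; exact ih)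
  have hm : k₂ * g * k₁⁻¹ ∈ 𝒩(cj k A) := cj_eq_iff_mem.1 (by
    rw [cj_mul, cj_mul]
    nth_rewrite 1 [← e₁]
    rw [cj_inv_cj, e₂])
  have p₃ := step1 hS h1 h2 hX (lt k) syl (by rw [card_cj]; exact ih) hm
  intro a ha
  rw [p₁ a ha, p₃ _ (e₁ ▸ conj_mem_cj k₁ ha), p₂ _ (conj_mem_cj g ha)]
  simp [mul_assoc]

end Alp

theorem alp : ALP.{u} := by
  intro G _ _ S D hS h1 h2 a ha haS g hg
  refine (Alp.main hS h1 h2 _ (zpowers a) (zpowers_le.2 haS) rfl g ?_ a (mem_zpowers a)).1 ha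
  rw [MonoidHom.map_zpowers]
  exact zpowers_le.2 hg

end CL.SY
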