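/-
Project SY: fusion in `N(R)`.
-/
import Cfsg.Agent.SY.Defs

set_option autoImplicit false
set_option linter.unusedSectionVars false

namespace CL.SY

open Subgroup Cfsg CL.Even CL.Grp
open scoped commutatorElement

universe u

namespace F1x

section
variable {G : Type u} [Group G]

theorem key {y z t t' w : G} (hy : y * y = 1) (hty : Commute t y) (htz : t * z * t⁻¹ = y * z) (ht'y : Commute t' y)
    (ht'z : Commute t' z) (hw : w ∈ closure ({t, t'} : Set G)) (hrz : Commute (w * t * w⁻¹ * t'⁻¹) z) : y = 1 := by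
  have hP : ∀ w ∈ closure ({t, t'} : Set G), Commute w y ∧ (w * z * w⁻¹ = z ∨ w * z * w⁻¹ = y * z) := by
    intro w hw
    induction hw using closure_induction with
    | mem x hx =>
      rcases hx with rfl | rfl
      · exact ⟨hty, Or.inr htz⟩
      · exact ⟨ht'y, Or.inl ht'z.mul_inv_cancel⟩
    | one => exact ⟨Commute.one_left y, Or.inl (by group)⟩
    | mul a b _ _ ha hb =>
      refine ⟨ha.1.mul_left hb.1, ?_⟩
      have e1 : a * b * z * (a * b)⁻¹ = a * (b * z * b⁻¹) * a⁻¹ := by group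
      have e2 : a * (y * z) * a⁻¹ = y * (a * z * a⁻¹) := by rw [← mul_assoc a, ha.1.eq]; group
      rcases hb.2 with h | h
      · rw [e1, h]; exact ha.2
      · rw [e1, h, e2]
        rcases ha.2 with h' | h'
        · rw [h']; exact Or.inr rfl
        · rw [h', ← mul_assoc, hy, one_mul]; exact Or.inl rfl
    | inv a _ ha =>
      refine ⟨ha.1.inv_left, ?_⟩
      rcases ha.2 with h | h
      · left
        conv_lhs => rw [← h]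
        group
      · right
        have e1 : z = y * (a * z * a⁻¹) := by rw [h, ← mul_assoc, hy, one_mul]
        conv_lhs => rw [e1, ← mul_assoc a⁻¹, ha.1.inv_left.eq]
        group
  have h1 : Commute (w * t * w⁻¹) z := by
    have := hrz.mul_left ht'z
    rwa [inv_mul_cancel_right] at this
  have h2 : t * (w⁻¹ * z * w⁻¹⁻¹) * t⁻¹ = w⁻¹ * z * w⁻¹⁻¹ := by
    have e : t * (w⁻¹ * z * w⁻¹⁻¹) * t⁻¹ = w⁻¹ * (w * t * w⁻¹ * z * (w * t * w⁻¹)⁻¹) * w⁻¹⁻¹ := by group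
    rw [e, h1.mul_inv_cancel]
  rcases (hP _ (inv_mem hw)).2 with h | h
  · rw [h, htz] at h2
    exact mul_eq_right.1 h2
  · rw [h, ← mul_assoc, hty.eq, mul_assoc y, mul_assoc y, htz] at h2
    exact mul_eq_right.1 h2

theorem sq_cent {σ : G} {C D : Subgroup G} (h1 : σ ∈ 𝒞(C)) (h2 : ∀ l ∈ D, ⁅σ, l⁆ ∈ C) (h3 : ∀ x ∈ C, x * x = 1) :
    σ * σ ∈ 𝒞(D) := fun l hl => by
  have e1 : σ * σ * l = σ * ⁅σ, l⁆ * σ⁻¹ * ⁅σ, l⁆ * (l * (σ * σ)) := by simp only [commutatorElement_def]; group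
  rw [e1, conj_eq_of_mem h1 (h2 l hl), h3 _ (h2 l hl), one_mul]

theorem comm_conj {g s : G} {C D : Subgroup G} (hC : g ∈ 𝒩(C)) (hD : g ∈ 𝒩(D)) (h : ∀ l ∈ D, ⁅s, l⁆ ∈ C) :
    ∀ l ∈ D, ⁅g * s * g⁻¹, l⁆ ∈ C := fun l hl => by
  rw [show ⁅g * s * g⁻¹, l⁆ = g * ⁅s, g⁻¹ * l * g⁆ * g⁻¹ by simp only [commutatorElement_def]; group]
  exact conj_mem hC (h _ (conj_mem' hD hl))

theorem comm_mul {t t' : G} {C D : Subgroup G} (hC : t ∈ 𝒩(C)) (h : ∀ l ∈ D, ⁅t, l⁆ ∈ C) (h' : ∀ l ∈ D, ⁅t', l⁆ ∈ C) :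
    ∀ l ∈ D, ⁅t * t', l⁆ ∈ C := fun l hl => by
  rw [show ⁅t * t', l⁆ = t * ⁅t', l⁆ * t⁻¹ * ⁅t, l⁆ by simp only [commutatorElement_def]; group]
  exact mul_mem (conj_mem hC (h' l hl)) (h l hl)

theorem mem_odd {σ : G} {H : Subgroup G} {n : ℕ} (hn : Odd n) (h1 : σ ^ n ∈ H) (h2 : σ * σ ∈ H) : σ ∈ H := by
  obtain ⟨k, rfl⟩ := hn
  rw [pow_succ, pow_mul, pow_two] at h1
  exact (mul_mem_cancel_left (pow_mem h2 k)).1 h1

end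

variable {F K : Type} [Field F] [Field K] [Algebra F K] [CharP K 2] {𝒟 : Fd F K}
variable {G : Type u} [Group G] [Finite G] {e : Pt 𝒟 →* G}

theorem x3_zero : (Pt.x3 0 : Pt 𝒟) = 1 := rfl

theorem sq5 (τ : F) : (Pt.x5 τ * Pt.x5 τ : Pt 𝒟) = 1 := by
  rw [Pt.sq_Q rfl]; simp [Pt.x5, x3_zero]

theorem SR (h : St2 e) : gS e ≤ 𝒩(gR e) := le_normalizer.trans h.SR
theorem SL (h : St2 e) : gS e ≤ 𝒩(gL e) := (SR h).trans h.RL
theorem SZ (h : St2 e) : gS e ≤ 𝒩(gZ e) := (le_normalizer.trans h.SQ).trans h.QZ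
theorem RC (h : St2 e) : gR e ≤ 𝒞(gL e) := h.cL ▸ inf_le_right
theorem ZL : gZ e ≤ gL e := map_mono fun _ hp => ⟨hp.1, hp.2.2.1, hp.2.2.2.1, hp.2.2.2.2⟩
theorem LB : gL e ≤ gB e := map_mono fun _ hp => ⟨hp.1, hp.2.2.1, hp.2.2.2⟩
theorem LR : gL e ≤ gR e := map_mono fun _ hp => hp.2.2.2
theorem RS : gR e ≤ gS e := map_le_range _ _

theorem sqB : ∀ x ∈ gB e, x * x = 1 := by
  rintro _ ⟨p, hp, rfl⟩
  rw [← map_mul, Pt.sq_Q hp.1, hp.2.1, hp.2.2]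
  simp [x3_zero]

theorem iv5 (h : St2 e) {τ : F} (hτ : τ ≠ 0) : Iv (gS e) (gR e) (e (Pt.x5 τ)) :=
  ⟨⟨_, rfl⟩, SR h ⟨_, rfl⟩, fun hh => hτ ((mem_map_iff_mem h.inj).1 hh), by rw [← map_mul, sq5, map_one]; exact one_mem _⟩

theorem cLZ {s : G} (hs : s ∈ gS e) : ∀ l ∈ gL e, ⁅s, l⁆ ∈ gZ e := by
  obtain ⟨p, rfl⟩ := hs
  rintro _ ⟨q, hq, rfl⟩
  rw [← map_commutatorElement, Pt.comm_L p hq.1 hq.2.1 hq.2.2.1 hq.2.2.2]
  exact ⟨_, ⟨rfl, rfl, rfl, rfl, rfl⟩, rfl⟩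

theorem cBL {s : G} (hs : s ∈ gS e) : ∀ l ∈ gB e, ⁅s, l⁆ ∈ gL e := by
  obtain ⟨p, rfl⟩ := hs
  rintro _ ⟨q, hq, rfl⟩
  rw [← map_commutatorElement]
  refine ⟨_, ⟨Pt.comm_v p q, ?_, ?_, Pt.comm_t p q⟩, rfl⟩
  · rw [Pt.comm_A_b p hq.1 hq.2.2, hq.2.1, Fd.cr_zero]
  · rw [Pt.comm_d, hq.1, hq.2.2]; simp

theorem cZ {s : G} (hs : s ∈ gS e) : s ∈ 𝒞(gZ e) := by
  obtain ⟨p, rfl⟩ := hs
  rintro _ ⟨q, hq, rfl⟩
  refine (commutatorElement_eq_one_iff_mul_comm.1 ?_).symm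
  rw [← map_commutatorElement, Pt.comm_L p hq.1 hq.2.2.1 hq.2.2.2.1 hq.2.2.2.2, hq.2.1, mul_zero, x3_zero, map_one]

/-- `[X₅, l] = Z` -/
theorem ex5 {l z : G} (hl : l ∈ gL e) (hl' : l ∉ gZ e) (hz : z ∈ gZ e) :
    ∃ τ, e (Pt.x5 τ) * l * (e (Pt.x5 τ))⁻¹ = z * l := by
  obtain ⟨q, hq, rfl⟩ := hl
  obtain ⟨p, hp, rfl⟩ := hz
  have ha : q.a ≠ 0 := fun ha => hl' ⟨q, ⟨hq.1, ha, hq.2.1, hq.2.2.1, hq.2.2.2⟩, rfl⟩
  refine ⟨p.c / q.a, ?_⟩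
  have : ⁅(Pt.x5 (p.c / q.a) : Pt 𝒟), q⁆ = p := by
    rw [Pt.comm_L _ hq.1 hq.2.1 hq.2.2.1 hq.2.2.2]
    exact Pt.ext hp.1.symm hp.2.1.symm hp.2.2.1.symm (div_mul_cancel₀ _ ha) hp.2.2.2.1.symm hp.2.2.2.2.symm
  have h2 := congrArg e this
  rw [map_commutatorElement, commutatorElement_def] at h2
  rw [← h2, inv_mul_cancel_right]

theorem r1 (hS : SET.{u}) (h : St2 e) :
    ∀ g ∈ 𝒩(gR e), g ∉ 𝒩(gZ e) → ∀ z ∈ gZ e, g * z * g⁻¹ ∈ gZ e → z = 1 := by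
  intro g hg hg' z hz hy
  by_contra hz1
  have hy1 : g * z * g⁻¹ ≠ 1 := fun hh => hz1 (by simpa using hh)
  have hE := hS G _ _ _ (h.essR fun hle => hg' (hle hg))
  obtain ⟨_, ⟨z1, hz1, rfl⟩, hz'⟩ := SetLike.not_le_iff_exists.1 fun hle => hg' (mem_norm_of_cj_le hle)
  change g * z1 * g⁻¹ ∉ _ at hz'
  have hL : g * z1 * g⁻¹ ∈ gL e := conj_mem (h.RL hg) (ZL hz1)
  obtain ⟨τ, hτ⟩ := ex5 hL hz' hy
  have hτ0 : τ ≠ 0 := by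
    rintro rfl
    rw [show (Pt.x5 0 : Pt 𝒟) = 1 from rfl, map_one, one_mul, inv_one, mul_one] at hτ
    exact hy1 (mul_eq_right.1 hτ.symm)
  obtain ⟨w, hw, hr⟩ := (hE.od hg (fun hh => hg' hh.2) (iv5 h hτ0) (iv5 h one_ne_zero)).2
  have hc : ∀ x ∈ gZ e, Commute (g * e (Pt.x5 1) * g⁻¹) (g * x * g⁻¹) := fun x hx =>
    (show Commute (e (Pt.x5 1)) x from (comm_of_mem (cZ ⟨_, rfl⟩) hx).symm).conj g
  exact hy1 (key (sqB _ (LB (ZL hy))) (comm_of_mem (cZ ⟨_, rfl⟩) hy).symm hτ (hc z hz) (hc z1 hz1) hw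
    (comm_of_mem (RC h hr) hL).symm)

theorem a_mul_inv {p q : Pt 𝒟} (hp : p ∈ Pt.L 𝒟) (hq : q ∈ Pt.L 𝒟) (h : p.a = q.a) : p * q⁻¹ ∈ Pt.Z 𝒟 := by
  have := mul_mem hp (inv_mem hq)
  refine ⟨this.1, 𝒟.inj ?_, this.2.1, this.2.2.1, this.2.2.2⟩
  pt_push
  simp only [hq.1, h, map_zero]
  grind

theorem r2 (hS : SET.{u}) (h : St2 e) (hn : ¬ 𝒩(gR e) ≤ 𝒩(gZ e)) :
    ∀ a ∈ gL e, a ≠ 1 → ∀ b ∈ gL e, b ≠ 1 → ∃ g ∈ 𝒩(gR e), g * a * g⁻¹ = b := by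
  obtain ⟨g, hg, hg'⟩ := SetLike.not_le_iff_exists.1 hn
  have hx3 : ∀ c, e (Pt.x3 c) ∈ gZ e := fun c => ⟨_, ⟨rfl, rfl, rfl, rfl, rfl⟩, rfl⟩
  have := h.finK
  have : Finite F := Finite.of_injective _ (algebraMap F K).injective
  choose φ hφ hφe using fun c => conj_mem (h.RL hg) (ZL (hx3 c))
  have hinj : Function.Injective fun c => (φ c).a := fun c c' hh => by
    have h1 : g * (e (Pt.x3 c) * (e (Pt.x3 c'))⁻¹) * g⁻¹ ∈ gZ e :=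
      ⟨_, a_mul_inv (hφ c) (hφ c') hh, by rw [map_mul, map_inv, hφe, hφe]; group⟩
    have h2 := r1 hS h g hg hg' _ (mul_mem (hx3 c) (inv_mem (hx3 c'))) h1
    exact congrArg Pt.c (h.inj (mul_inv_eq_one.1 h2))
  have h0 : g * e (Pt.x3 1) * g⁻¹ ∉ gZ e := fun hh =>
    one_ne_zero (congrArg Pt.c (h.inj ((r1 hS h g hg hg' _ (hx3 1) hh).trans (map_one e).symm)))
  have h0L := conj_mem (h.RL hg) (ZL (hx3 1))
  have hZ : ∀ z ∈ gZ e, z ≠ 1 → ∃ n ∈ 𝒩(gR e), n * z * n⁻¹ = g * e (Pt.x3 1) * g⁻¹ := by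
    intro z hz hz1
    obtain ⟨τ, hτ⟩ := ex5 (conj_mem (inv_mem (h.RL hg)) (ZL hz))
      (fun hh => hz1 (r1 hS h g⁻¹ (inv_mem hg) (fun h' => hg' (inv_mem_iff.1 h')) z hz hh)) (hx3 1)
    obtain ⟨τ', hτ'⟩ := ex5 h0L h0 hz
    refine ⟨(e (Pt.x5 τ'))⁻¹ * (g * e (Pt.x5 τ) * g⁻¹),
      mul_mem (inv_mem (SR h ⟨_, rfl⟩)) (mul_mem (mul_mem hg (SR h ⟨_, rfl⟩)) (inv_mem hg)), ?_⟩
    calc _ = (e (Pt.x5 τ'))⁻¹ * (g * (e (Pt.x5 τ) * (g⁻¹ * z * g⁻¹⁻¹) * (e (Pt.x5 τ))⁻¹) * g⁻¹) * e (Pt.x5 τ') := by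
          group
      _ = (e (Pt.x5 τ'))⁻¹ * (g * e (Pt.x3 1) * g⁻¹ * z) * e (Pt.x5 τ') := by rw [hτ]; group
      _ = _ := by rw [comm_of_mem (RC h (LR (ZL hz))) h0L, ← hτ']; group
  have hL : ∀ a ∈ gL e, a ≠ 1 → ∃ n ∈ 𝒩(gR e), n * a * n⁻¹ = g * e (Pt.x3 1) * g⁻¹ := by
    intro a ha ha1
    by_cases haZ : a ∈ gZ e
    · exact hZ a haZ ha1
    obtain ⟨p, hp, rfl⟩ := id ha
    obtain ⟨c, hc⟩ := Finite.surjective_of_injective hinj p.a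
    obtain ⟨τ, hτ⟩ := ex5 ha haZ ⟨_, a_mul_inv (hφ c) hp hc, rfl⟩
    rw [map_mul, map_inv, inv_mul_cancel_right, hφe] at hτ
    obtain ⟨n, hn, hn'⟩ := hZ _ (hx3 c) fun hh => ha1 (by rw [hh] at hτ; simpa using hτ)
    refine ⟨n * g⁻¹ * e (Pt.x5 τ), mul_mem (mul_mem hn (inv_mem hg)) (SR h ⟨_, rfl⟩), ?_⟩
    calc _ = n * g⁻¹ * (e (Pt.x5 τ) * e p * (e (Pt.x5 τ))⁻¹) * g * n⁻¹ := by group
      _ = _ := by rw [hτ, ← hn']; group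
  intro a ha ha1 b hb hb1
  obtain ⟨n, hn, hn'⟩ := hL a ha ha1
  obtain ⟨m, hm, hm'⟩ := hL b hb hb1
  refine ⟨m⁻¹ * n, mul_mem (inv_mem hm) hn, ?_⟩
  calc _ = m⁻¹ * (n * a * n⁻¹) * m := by group
    _ = _ := by rw [hn', ← hm']; group

theorem r3 (hS : SET.{u}) (h : St2 e) (hn : 𝒩(gR e) ≤ 𝒩(gZ e)) (H : Subgroup G) : ¬ Ess (gS e) (gR e) H := by
  intro hE0
  have hE := hS G _ _ _ hE0
  obtain ⟨g, hg, hgH⟩ := hE0.ne
  have h5 : ∀ τ, e (Pt.x5 τ) ∈ gS e := fun τ => ⟨_, rfl⟩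
  have hC : ∀ τ, τ ≠ 0 → e (Pt.x5 τ) * (g * e (Pt.x5 1) * g⁻¹) ∈ 𝒞(gL e) := fun τ hτ => by
    obtain ⟨n, hn1, hn2⟩ := (hE.od hg hgH (iv5 h hτ) (iv5 h one_ne_zero)).1
    refine mem_odd hn1 (RC h hn2) (sq_cent (C := gZ e) ?_ ?_ fun x hx => sqB x (LB (ZL hx)))
    · exact mul_mem (cZ (h5 τ)) (conj_mem (norm_le_norm_cent _ (hn hg)) (cZ (h5 1)))
    · exact comm_mul (SZ h (h5 τ)) (cLZ (h5 τ)) (comm_conj (hn hg) (h.RL hg) (cLZ (h5 1)))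
  rcases h.kind with hk | hk
  · have := h.finK
    have : Finite F := Finite.of_injective _ (algebraMap F K).injective
    have := 𝒟.charF
    have hall : ∀ τ : F, τ ≠ 0 → τ = 1 := fun τ hτ => by
      have h1 : e (Pt.x5 τ * (Pt.x5 1)⁻¹) ∈ gS e ⊓ 𝒞(gL e) := by
        refine ⟨⟨_, rfl⟩, ?_⟩
        have := mul_mem (hC τ hτ) (inv_mem (hC 1 one_ne_zero))
        rw [map_mul, map_inv]
        simpa [mul_assoc] using this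
      rw [h.cL, mem_map_iff_mem h.inj, Pt.mem_R, Pt.mul_t, Pt.inv_t] at h1
      change τ + 1 = 0 at h1
      grind
    have h2 : Nat.card F ≤ Nat.card Bool := by
      classical
      refine Nat.card_le_card_of_injective (fun τ : F => decide (τ = 0)) fun a b hab => ?_
      by_cases ha : a = 0
      · have hb : b = 0 := by simpa [ha] using hab
        rw [ha, hb]
      · have hb : b ≠ 0 := by simpa [ha] using hab
        rw [hall a ha, hall b hb]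
    have := hk.2
    simp at h2
    omega
  · have hB := h.RB hk
    obtain ⟨n, hn1, hn2⟩ := (hE.od hg hgH (iv5 h one_ne_zero) (iv5 h one_ne_zero)).1
    have hσ := hC 1 one_ne_zero
    have hσB := comm_mul (SL h (h5 1)) (cBL (h5 1)) (comm_conj (h.RL hg) (hB hg) (cBL (h5 1)))
    have hσR : e (Pt.x5 1) * (g * e (Pt.x5 1) * g⁻¹) ∈ 𝒩(gR e) :=
      mul_mem (SR h (h5 1)) (mul_mem (mul_mem hg (SR h (h5 1))) (inv_mem hg))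
    set σ := e (Pt.x5 1) * (g * e (Pt.x5 1) * g⁻¹) with hσd
    have h2 : σ * σ ∈ 𝒞(gB e) := sq_cent hσ hσB fun x hx => sqB x (LB hx)
    have h4 : σ * σ * (σ * σ) ∈ 𝒞(gR e) := by
      refine sq_cent h2 (fun r hr => ?_) sqB
      rw [← h.cB]
      refine ⟨RS (mul_mem (conj_mem (mul_mem hσR hσR) hr) (inv_mem hr)), ?_⟩
      rw [commutatorElement_def, mul_assoc, mul_assoc, ← mul_assoc r]
      exact mul_mem h2 (conj_mem (norm_le_norm_cent _ (hB (le_normalizer hr))) (inv_mem h2))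
    have hRH : gR e ≤ H := fun r hr => hE0.TH ⟨RS hr, le_normalizer hr⟩
    have hσ2 : σ * σ ∈ H := by
      refine mem_odd hn1 ?_ (hE0.CH h4)
      rw [← pow_two, ← pow_mul, mul_comm, pow_mul]
      exact pow_mem (hRH hn2) 2
    have h1H : e (Pt.x5 1) ∈ H := hE0.TH ⟨h5 1, SR h (h5 1)⟩
    have ht' : g * e (Pt.x5 1) * g⁻¹ ∈ H := (mul_mem_cancel_left h1H).1 (mem_odd hn1 (hRH hn2) hσ2)
    have hR := hE0.se g hg hgH _ ht' ⟨1, by rw [conj_pow, pow_one, pow_two, ← map_mul, sq5, map_one]; group⟩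
      (by simpa [mul_assoc] using h1H)
    exact (iv5 h one_ne_zero).out (by simpa [mul_assoc] using conj_mem' hg hR)

end F1x

theorem f1 (hS : SET.{u}) : F1.{u} := fun _ _ _ _ _ _ _ _ _ _ _ h => ⟨F1x.r1 hS h, F1x.r2 hS h, F1x.r3 hS h⟩

end CL.SY
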