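/-
Project SY (S1770): in type `³D₄(q)` a conjugate of `L` under `N(Q) ∖ N(L)` meets `A` in `Z`.
-/
import Cfsg.Agent.SY.Defs

set_option autoImplicit false

namespace CL.SY

open Subgroup Cfsg CL.Even CL.Grp Pt
open scoped commutatorElement

universe u

namespace F2dx

variable {F K : Type} [Field F] [Field K] [Algebra F K] [CharP K 2] {𝒟 : Fd F K}

section Model

variable {p q : Pt 𝒟}

omit [CharP K 2] in
theorem mulQ (hq : q.v = 0) : (p * q).a = p.a + q.a ∧ (p * q).b = p.b + q.b ∧ (p * q).d = p.d + q.d := by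
  refine ⟨𝒟.inj ?_, ?_, ?_⟩ <;> pt_push <;> simp [hq]

theorem invQ (hp : p.v = 0) : p⁻¹.a = p.a ∧ p⁻¹.b = p.b ∧ p⁻¹.d = p.d := by
  refine ⟨𝒟.inj ?_, ?_, ?_⟩ <;> pt_push <;> simp [hp]

theorem conj0 (v : K) (h0 : p.v = 0) (h5 : p.t = 0) : (x0 v * p * (x0 v)⁻¹).v = 0 ∧ (x0 v * p * (x0 v)⁻¹).t = 0 ∧
    (x0 v * p * (x0 v)⁻¹).d = p.d ∧ (x0 v * p * (x0 v)⁻¹).b = p.b + 𝒟.cr v p.d := by
  refine ⟨?_, 𝒟.inj ?_, ?_, ?_⟩ <;> simp only [x0] <;> pt_push <;> simp only [h0, h5, map_zero] <;> grind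

theorem T_conj0 (v : K) (h0 : p.v = 0) (h5 : p.t = 0) :
    𝒟.T (p.d * (x0 v * p * (x0 v)⁻¹).b) = 𝒟.T (p.d * p.b) := by
  rw [(conj0 v h0 h5).2.2.2, mul_add, map_add, 𝒟.cr_comm, 𝒟.T_cr_self, add_zero]

omit [CharP K 2] in
theorem x3_eq_one {c : F} : (x3 c : Pt 𝒟) = 1 ↔ c = 0 := ⟨congrArg Pt.c, by rintro rfl; rfl⟩

theorem sq_A (h0 : p.v = 0) (h5 : p.t = 0) : p * p = 1 ↔ 𝒟.T (p.d * p.b) = 0 := by
  rw [sq_Q h0, x3_eq_one, h5, zero_mul, zero_add]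

theorem sq_B (h : p ∈ B 𝒟) : p * p = 1 := by rw [sq_A h.1 h.2.2, h.2.1, zero_mul, map_zero]

theorem div_B (hp : p ∈ A 𝒟) (hq : q ∈ A 𝒟) (h : p.d = q.d) : p * q⁻¹ ∈ B 𝒟 :=
  have k := mul_mem hp (inv_mem hq)
  ⟨k.1, by rw [(mulQ (inv_mem hq).1).2.2, (invQ hq.1).2.2, h, CharTwo.add_self_eq_zero], k.2⟩

theorem div_Z (hp : p ∈ A 𝒟) (hq : q ∈ A 𝒟) (ha : p.a = q.a) (hb : p.b = q.b) (h : p.d = q.d) : p * q⁻¹ ∈ Z 𝒟 :=
  have k := div_B hp hq h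
  have := 𝒟.charF
  ⟨k.1, by rw [(mulQ (inv_mem hq).1).1, (invQ hq.1).1, ha, CharTwo.add_self_eq_zero],
    by rw [(mulQ (inv_mem hq).1).2.1, (invQ hq.1).2.1, hb, CharTwo.add_self_eq_zero], k.2⟩

theorem Z_L (h : p ∈ Z 𝒟) : p ∈ L 𝒟 := ⟨h.1, h.2.2⟩
theorem L_B (h : p ∈ L 𝒟) : p ∈ B 𝒟 := ⟨h.1, h.2.2⟩
theorem B_A (h : p ∈ B 𝒟) : p ∈ A 𝒟 := ⟨h.1, h.2.2⟩

theorem cent_L (h1 : q ∈ L 𝒟) (h2 : q ∉ Z 𝒟) : p * q = q * p ↔ p.t = 0 := by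
  rw [← commutatorElement_eq_one_iff_mul_comm, comm_L p h1.1 h1.2.1 h1.2.2.1 h1.2.2.2, x3_eq_one, mul_eq_zero,
    or_iff_left fun e => h2 ⟨h1.1, e, h1.2⟩]

omit [CharP K 2] in
theorem card_perp (h : 𝒟.LA) {d : K} (hd : d ≠ 0) : Nat.card (F × {b // 𝒟.T (d * b) = 0}) = Nat.card K := by
  let f : K →+ F := 𝒟.T.toAddMonoidHom.comp (AddMonoidHom.mulLeft d)
  have e : f.range = ⊤ := AddMonoidHom.range_eq_top.2 (h.surj d hd)
  rw [Nat.card_prod, ← f.ker.index_mul_card, AddSubgroup.index_ker, e, AddSubgroup.card_top]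
  rfl

end Model

variable {G : Type u} [Group G] [Finite G] {e : Pt 𝒟 →* G}

/-- `g` conjugates `p` to `q` -/
def Cj (e : Pt 𝒟 →* G) (g : G) (p q : Pt 𝒟) : Prop := g * e p * g⁻¹ = e q

/-- the conjugates of `L ∖ Z` under `N(Q)` -/
def Om (e : Pt 𝒟 →* G) (p : Pt 𝒟) : Prop := ∃ k ∈ 𝒩(gQ e), ∃ l ∈ L 𝒟, l ∉ Z 𝒟 ∧ Cj e k l p

section

omit [Finite G]

variable {g k : G} {p q r p' q' : Pt 𝒟}

theorem Cj.symm (h : Cj e g p q) : Cj e g⁻¹ q p := by rw [Cj, ← h]; group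
theorem Cj.comp (h : Cj e g p q) (h' : Cj e k q r) : Cj e (k * g) p r := by rw [Cj, ← h', ← h]; group
theorem Cj.mul (h : Cj e g p q) (h' : Cj e g p' q') : Cj e g (p * p') (q * q') := by
  rw [Cj, map_mul, map_mul, ← h, ← h']; group
theorem Cj.inv (h : Cj e g p q) : Cj e g p⁻¹ q⁻¹ := by rw [Cj, map_inv, map_inv, ← h]; group
theorem cj_self (s p : Pt 𝒟) : Cj e (e s) p (s * p * s⁻¹) := by simp [Cj]
theorem Cj.eq (hi : Function.Injective e) (h : Cj e g p q) (h' : Cj e g p q') : q = q' := hi (Eq.symm h |>.trans h')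
theorem Cj.mem (hi : Function.Injective e) {X : Subgroup (Pt 𝒟)} (hg : g ∈ 𝒩(X.map e)) (h : Cj e g p q) (hp : p ∈ X) :
    q ∈ X := (mem_map_iff_mem hi).1 (h ▸ conj_mem hg (mem_map_of_mem e hp))
theorem ex_cj {X : Subgroup (Pt 𝒟)} (hg : g ∈ 𝒩(X.map e)) (hp : p ∈ X) : ∃ q ∈ X, Cj e g p q :=
  let ⟨q, hq, h⟩ := conj_mem hg (mem_map_of_mem e hp); ⟨q, hq, h.symm⟩
theorem Cj.one : Cj e g 1 1 := by simp [Cj]
theorem Om.cj (h : Om e p) (hg : g ∈ 𝒩(gQ e)) (c : Cj e g p q) : Om e q :=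
  let ⟨_, hk, l, h1, h2, h3⟩ := h; ⟨_, mul_mem hg hk, l, h1, h2, h3.comp c⟩
theorem om_L (h1 : p ∈ L 𝒟) (h2 : p ∉ Z 𝒟) : Om e p := ⟨1, one_mem _, p, h1, h2, by simp [Cj]⟩

end

variable (h : St2 e) {g k : G} {p q l l' : Pt 𝒟}
include h

omit [Finite G] in
theorem SN (s : Pt 𝒟) : e s ∈ 𝒩(gQ e) := h.SQ (le_normalizer ⟨s, rfl⟩)

/-- step (0) -/
theorem normL (hk : k ∈ 𝒩(gQ e)) (h1 : l ∈ L 𝒟) (h2 : l ∉ Z 𝒟) (h3 : l' ∈ L 𝒟) (c : Cj e k l l') : k ∈ 𝒩(gL e) := by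
  have h4 : l' ∉ Z 𝒟 := fun m => h2 (c.symm.mem h.inj (h.QZ (inv_mem hk)) m)
  have h5 : k ∈ 𝒩(gA e) := mem_norm_of_cj_le (by
    rintro _ ⟨_, ⟨a, ha, rfl⟩, rfl⟩
    obtain ⟨b, hb, c'⟩ := ex_cj hk (X := Q 𝒟) ha.1
    refine ⟨b, ⟨hb, (cent_L h3 h4).1 ((c'.mul c).eq h.inj ?_)⟩, Eq.symm c'⟩
    rw [(cent_L h1 h2).2 ha.2]
    exact c.mul c')
  have h6 : gA e ⊓ 𝒞(gA e) = gL e := le_antisymm ((inf_le_inf_right _ (map_le_range _ _)).trans h.cA.le)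
    (le_inf (map_mono fun _ m => B_A (L_B m)) (h.cA.ge.trans inf_le_right))
  exact h6 ▸ le_norm_inf le_rfl (norm_le_norm_cent _) h5

omit [Finite G] in
theorem om_sq (o : Om e p) : p * p = 1 :=
  let ⟨_, _, _, h1, _, c⟩ := o
  (c.mul c).eq h.inj (by rw [sq_B (L_B h1)]; exact Cj.one)

omit [Finite G] in
theorem om_Z (o : Om e p) (hq : q ∈ Z 𝒟) : Om e (q * p) := by
  obtain ⟨k, hk, l, h1, h2, c⟩ := o
  obtain ⟨z, hz, c'⟩ := ex_cj (h.QZ (inv_mem hk)) hq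
  exact ⟨k, hk, z * l, mul_mem (Z_L hz) h1, mt (mul_mem_cancel_left hz).1 h2, Cj.mul (inv_inv k ▸ c'.symm) c⟩

variable (hn : ¬ 𝒩(gQ e) ≤ 𝒩(gL e))
include hn

/-- step (1) -/
theorem om_comm (o : Om e p) (hp : p ∉ L 𝒟) {s : Pt 𝒟} (hs : ⁅s, p⁆ ∈ Z 𝒟) : s.v = 0 := by
  obtain ⟨k, hk, l, h1, h2, c⟩ := o
  obtain ⟨z, hz, c'⟩ := ex_cj (h.QZ (inv_mem hk)) hs
  have c2 : Cj e (k⁻¹ * (e s * k)) l (z * l) := (c.comp (cj_self s p)).comp (by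
    simpa [commutatorElement_def] using c'.mul c.symm)
  have h3 := mul_mem (inv_mem hk) (mul_mem (SN h s) hk)
  have E := h.essQ hn
  obtain ⟨n, hn⟩ := isPGroup_iff_forall.1 E.pS (e s) ⟨s, rfl⟩
  exact (mem_map_iff_mem h.inj).1 (E.se k hk (fun m => hp (c.mem h.inj m.2 h1)) (e s) (E.TH ⟨⟨s, rfl⟩, SN h s⟩) ⟨n, hn⟩
    (by rw [mul_assoc]; exact ⟨h3, normL h h3 h1 h2 (mul_mem (Z_L hz) h1) c2⟩))

theorem om_inj (o : Om e p) (hp : p ∈ A 𝒟) (hd : p.d ≠ 0) {v v' : K}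
    (hz : x0 v * p * (x0 v)⁻¹ * (x0 v' * p * (x0 v')⁻¹)⁻¹ ∈ Z 𝒟) : v = v' := by
  have := om_comm h hn (o.cj (SN h _) (cj_self (x0 v') p)) (fun m => hd ((conj0 v' hp.1 hp.2).2.2.1 ▸ m.2.2.1))
    (s := x0 v * (x0 v')⁻¹) (by convert hz using 1; rw [commutatorElement_def]; group)
  rw [mul_v, inv_v] at this
  exact CharTwo.add_eq_zero.1 this

variable (h4 : 𝒟.D4)
include h4

/-- step (2) -/
theorem om_B (o : Om e p) (hp : p ∈ B 𝒟) : p ∈ L 𝒟 := by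
  by_contra m
  have hb : p.b ≠ 0 := fun e => m ⟨hp.1, e, hp.2⟩
  obtain ⟨x, y, h1, -, h2⟩ := h.ex2 h4 _ hb
  have := om_comm h hn o m (s := x0 x) (by
    rw [comm_RB rfl hp.1 hp.2.1 hp.2.2]
    simp only [x0, h1, zero_mul, map_zero]
    exact mul_mem (one_mem (Z 𝒟)) (one_mem (Z 𝒟)))
  exact hb (by rw [← h2, show x = 0 from this, 𝒟.cr_comm, 𝒟.cr_zero])

omit h4 in
/-- step (3) -/
theorem om_A (o : Om e p) (hp : p ∈ A 𝒟) (hd : p.d ≠ 0) (hq : q ∈ A 𝒟) (e1 : q.d = p.d) (e2 : q * q = 1) :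
    Om e q := by
  have := h.finK
  have : Finite F := Finite.of_injective _ (algebraMap F K).injective
  have hA : ∀ v, x0 v * p * (x0 v)⁻¹ ∈ A 𝒟 := fun v => ⟨(conj0 v hp.1 hp.2).1, (conj0 v hp.1 hp.2).2.1⟩
  have hf : Function.Injective fun v : K => (((x0 v * p * (x0 v)⁻¹).a, ⟨(x0 v * p * (x0 v)⁻¹).b,
      (T_conj0 v hp.1 hp.2).trans ((sq_A hp.1 hp.2).1 (om_sq h o))⟩) : F × {b // 𝒟.T (p.d * b) = 0}) := fun v v' k =>
    om_inj h hn o hp hd (div_Z (hA v) (hA v') (congrArg Prod.fst k) (congrArg (·.2.1) k)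
      ((conj0 v hp.1 hp.2).2.2.1.trans (conj0 v' hp.1 hp.2).2.2.1.symm))
  obtain ⟨v, k⟩ := (hf.bijective_of_nat_card_le (card_perp h.toLA hd).le).2 (q.a, ⟨q.b, e1 ▸ (sq_A hq.1 hq.2).1 e2⟩)
  simpa only [inv_mul_cancel_right] using om_Z h (o.cj (SN h _) (cj_self (x0 v) p)) (div_Z hq (hA v) (congrArg Prod.fst k).symm
    (congrArg (·.2.1) k).symm (e1.trans (conj0 v hp.1 hp.2).2.2.1.symm))

end F2dx

open F2dx in
theorem f2d : F2d.{u} := by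
  rintro G _ _ F K _ _ _ _ 𝒟 e h h4 g hg hgL _ ⟨y, hy, rfl⟩ ⟨y', hy', c⟩
  have c : Cj e g y y' := c.symm
  have hn : ¬ 𝒩(gQ e) ≤ 𝒩(gL e) := fun k => hgL (k hg)
  refine mem_map_of_mem e (by_contra fun yZ => ?_)
  have := h.finK
  have : Finite F := Finite.of_injective _ (algebraMap F K).injective
  have oy : Om e y' := (om_L hy yZ).cj hg c
  have hd : y'.d ≠ 0 := fun k => hgL (normL h hg hy yZ (om_B h hn h4 oy ⟨hy'.1, k, hy'.2⟩) c)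
  have sy := (sq_A hy'.1 hy'.2).1 (om_sq h oy)
  have c0 := fun v => conj0 v hy'.1 hy'.2
  have hA : ∀ v, x0 v * y' * (x0 v)⁻¹ ∈ A 𝒟 := fun v => ⟨(c0 v).1, (c0 v).2.1⟩
  have ow : ∀ v, Om e (x0 v * y' * (x0 v)⁻¹) := fun v => oy.cj (SN h _) (cj_self _ _)
  choose u hu cu using fun v => ex_cj (inv_mem hg) (X := Q 𝒟) (hA v).1
  have uA : ∀ v, u v ∈ A 𝒟 := fun v => ⟨hu v, (cent_L hy yZ).1 (((cu v).mul c.symm).eq h.inj (by
    have : x0 v * y' * (x0 v)⁻¹ * y' = y' * (x0 v * y' * (x0 v)⁻¹) := by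
      rw [← commutatorElement_eq_one_iff_mul_comm, comm_Q (c0 v).1 hy'.1, x3_eq_one, (c0 v).2.1, (c0 v).2.2.1,
        T_conj0 v hy'.1 hy'.2, sy, show y'.t = 0 from hy'.2]
      simp
    rw [this]
    exact c.symm.mul (cu v)))⟩
  have ui : Function.Injective fun v => (u v).d := fun v v' k => by
    have k1 := div_B (uA v) (uA v') k
    have k2 := div_B (hA v) (hA v') ((c0 v).2.2.1.trans (c0 v').2.2.1.symm)
    have k3 := (cu v).mul (cu v').inv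
    have k4 := mul_mem hy' (B_A k2)
    have k5 := (mulQ (p := y') k2.1).2.2
    rw [k2.2.1, add_zero] at k5
    have k6 := om_A h hn oy hy' hd k4 k5 ((sq_A k4.1 k4.2).2 (by
      rw [k5, (mulQ k2.1).2.1, (mulQ (inv_mem (hA v')).1).2.1, (invQ (c0 v').1).2.1, mul_add, mul_add, map_add, map_add,
        T_conj0 v hy'.1 hy'.2, T_conj0 v' hy'.1 hy'.2, sy, add_zero, add_zero]))
    have k7 := (mul_mem_cancel_left hy).1 (om_B h hn h4 (k6.cj (inv_mem hg) (c.symm.mul k3)) (mul_mem (L_B hy) k1))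
    have k8 : Cj e g _ _ := inv_inv g ▸ k3.symm
    refine om_inj h hn oy hy' hd (by_contra fun m => ?_)
    have k9 := mt (k8.mem h.inj (h.QZ hg)) m
    exact hgL (normL h hg k7 k9 (om_B h hn h4 ((om_L k7 k9).cj hg k8) k2) k8)
  have key : ∀ p ∈ B 𝒟, ∀ x ∈ A 𝒟, x.d ≠ 0 → Cj e g p x → p ∈ L 𝒟 := fun p hp x hx xd k => by
    obtain ⟨v, hv⟩ := Finite.injective_iff_surjective.1 ui x.d
    exact om_B h hn h4 ((om_A h hn ((ow v).cj (inv_mem hg) (cu v)) (uA v) (hv.trans_ne xd) hx hv.symm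
      ((k.mul k).eq h.inj (by rw [sq_B hp]; exact Cj.one))).cj (inv_mem hg) k.symm) hp
  choose w hw cw using fun b : K => ex_cj hg (X := Q 𝒟) (p := x2 b) rfl
  obtain ⟨b, b', ne, k⟩ : ∃ b b', b ≠ b' ∧ (w b).t = (w b').t := by
    by_contra k
    push Not at k
    have k1 := Nat.card_le_card_of_injective (fun b => (w b).t) fun b b' m => by_contra fun ne => k b b' ne m
    have k2 : Nat.card K = Nat.card F ^ 3 := by rw [Module.natCard_eq_pow_finrank (K := F), h4]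
    have k3 : 1 < Nat.card F := Finite.one_lt_card
    have := Nat.pow_lt_pow_right k3 (show 1 < 3 by norm_num)
    rw [pow_one] at this
    omega
  have := 𝒟.charF
  have pB : (x2 b * x2 b' : Pt 𝒟) ∈ B 𝒟 := mul_mem ⟨rfl, rfl, rfl⟩ ⟨rfl, rfl, rfl⟩
  have pL : (x2 b * x2 b' : Pt 𝒟) ∉ L 𝒟 := fun m => ne (CharTwo.add_eq_zero.1 ((mulQ (q := x2 b') rfl).2.1.symm.trans m.2.1))
  have xA : w b * w b' ∈ A 𝒟 := ⟨mul_mem (hw b) (hw b'), show _ = _ by rw [mul_t, k, CharTwo.add_self_eq_zero]⟩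
  have cx := (cw b).mul (cw b')
  by_cases xd : (w b * w b').d = 0
  · exact pL ((mul_mem_cancel_left hy).1 (key _ (mul_mem (L_B hy) pB) _ (mul_mem hy' xA)
      (by rwa [(mulQ xA.1).2.2, xd, add_zero]) (c.mul cx)))
  · exact pL (key _ pB _ xA xd cx)

end CL.SY
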