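/-
Project SY (S1770): type `G₂(q)`, conjugates of `L` under `N(Q)` meet `A` in `Z`.
-/
import Cfsg.Agent.SY.Defs

set_option autoImplicit false

namespace CL.SY

open Subgroup Cfsg CL.Even CL.Grp Pt
open scoped commutatorElement

universe u

namespace F2gx

theorem pure {K X : Type} [Field K] [CharP K 2] (a b d t : X → K) (φ : X → X) {ea eb ed et y : X}
    (ha : a ea = 1 ∧ b ea = 0 ∧ d ea = 0 ∧ t ea = 0) (hb : a eb = 0 ∧ b eb = 1 ∧ d eb = 0 ∧ t eb = 0)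
    (hd : a ed = 0 ∧ b ed = 0 ∧ d ed = 1 ∧ t ed = 0) (ht : a et = 0 ∧ b et = 0 ∧ d et = 0 ∧ t et = 1)
    (h2 : ∀ x, φ (φ x) = x)
    (hβ : ∀ x y, t (φ x) * a (φ y) + t (φ y) * a (φ x) + d (φ x) * b (φ y) + d (φ y) * b (φ x) =
      t x * a y + t y * a x + d x * b y + d y * b x)
    (hκ : ∀ x, t (φ x) * a (φ x) + d (φ x) * b (φ x) = t x * a x + d x * b x)
    (hu : t (φ ea) = 0) (hy : b y ≠ 0 ∧ d y = 0 ∧ t y = 0 ∧ φ y = y) :
    ∃ c, ∀ μ x, a x = μ * d x ∧ b x = μ * t x → a (φ x) = (μ + c) * d (φ x) ∧ b (φ x) = (μ + c) * t (φ x) := by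
  have sa : ∀ x y, t (φ x) * a y + t y * a (φ x) + d (φ x) * b y + d y * b (φ x) =
      t x * a (φ y) + t (φ y) * a x + d x * b (φ y) + d (φ y) * b x := fun x y => by
    have := hβ x (φ y)
    rwa [h2] at this
  obtain ⟨a1, a2, a3, a4⟩ := ha
  obtain ⟨b1, b2, b3, b4⟩ := hb
  obtain ⟨d1, d2, d3, d4⟩ := hd
  obtain ⟨t1, t2, t3, t4⟩ := ht
  obtain ⟨y1, y2, y3, y4⟩ := hy
  have ct : ∀ x, t (φ x) = t x * a (φ ea) + t (φ ea) * a x + d x * b (φ ea) + d (φ ea) * b x := fun x => by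
    simpa [a1, a2, a3, a4] using sa x ea
  have cd : ∀ x, d (φ x) = t x * a (φ eb) + t (φ eb) * a x + d x * b (φ eb) + d (φ eb) * b x := fun x => by
    simpa [b1, b2, b3, b4] using sa x eb
  have cb : ∀ x, b (φ x) = t x * a (φ ed) + t (φ ed) * a x + d x * b (φ ed) + d (φ ed) * b x := fun x => by
    simpa [d1, d2, d3, d4] using sa x ed
  have ca : ∀ x, a (φ x) = t x * a (φ et) + t (φ et) * a x + d x * b (φ et) + d (φ et) * b x := fun x => by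
    simpa [t1, t2, t3, t4] using sa x et
  have u1 : d (φ ea) = 0 := by simpa [a1, a2, a3, a4, y1, y2, y3, y4, hu] using sa ea y
  have w1 : t (φ eb) = 0 := by simpa [b1, b2, b3, b4, u1] using ct eb
  have w2 : d (φ eb) = 0 := by simpa [b1, b2, b3, b4, y1, y2, y3, y4, w1] using sa eb y
  have p1 : t (φ et) = a (φ ea) := by simpa [t1, t2, t3, t4] using ct et
  have p2 : t (φ ed) = b (φ ea) := by simpa [d1, d2, d3, d4] using ct ed
  have p3 : d (φ et) = a (φ eb) := by simpa [t1, t2, t3, t4] using cd et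
  have p4 : d (φ ed) = b (φ eb) := by simpa [d1, d2, d3, d4] using cd ed
  have q1 := hβ ea et
  have q2 := hβ eb ed
  have q3 := hβ ed et
  have k1 := hκ ed
  have k2 := hκ et
  simp only [a1, a2, a3, a4, b1, b2, b3, b4, d1, d2, d3, d4, t1, t2, t3, t4, hu, u1, w1, w2, ← p1, ← p2, ← p3, ← p4,
    zero_mul, mul_zero, zero_add, add_zero, mul_one] at q1 q2 q3 k1 k2 ct cd
  have e : t (φ et) = d (φ ed) := by
    have : (t (φ et) + d (φ ed)) ^ 2 = 0 := by grind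
    have := pow_eq_zero_iff two_ne_zero |>.1 this
    grind
  refine ⟨a (φ ed) * t (φ et) + d (φ et) * b (φ ed), fun μ x ⟨x1, x2⟩ => ?_⟩
  rw [ca x, cb x, cd x, ct x, x1, x2]
  have c1 : a (φ ed) = (a (φ ed) * t (φ et) + d (φ et) * b (φ ed)) * d (φ ed) := by grind
  have c2 : b (φ ed) = (a (φ ed) * t (φ et) + d (φ et) * b (φ ed)) * t (φ ed) := by grind
  have c3 : a (φ et) = (a (φ ed) * t (φ et) + d (φ et) * b (φ ed)) * d (φ et) := by grind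
  have c4 : b (φ et) = (a (φ ed) * t (φ et) + d (φ et) * b (φ ed)) * t (φ et) := by grind
  generalize a (φ ed) * t (φ et) + d (φ et) * b (φ ed) = c at c1 c2 c3 c4
  rw [c1, c2, c3, c4, e]
  constructor <;> ring

variable {F K : Type} [Field F] [Field K] [Algebra F K] [CharP K 2] {𝒟 : Fd F K}

omit [CharP K 2] in
theorem x3_inj {c c' : F} (h : (x3 c : Pt 𝒟) = x3 c') : c = c' := congrArg Pt.c h

theorem x3_Z (c : F) : (x3 c : Pt 𝒟) ∈ Z 𝒟 := ⟨rfl, rfl, rfl, rfl, rfl⟩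

theorem Z_comm (p : Pt 𝒟) {z : Pt 𝒟} (h : z ∈ Z 𝒟) : Commute p z := by
  rw [← commutatorElement_eq_one_iff_commute, comm_L p h.1 h.2.2.1 h.2.2.2.1 h.2.2.2.2, h.2.1, mul_zero]; rfl

theorem L_comm {p l : Pt 𝒟} (hp : p.t = 0) (h : l ∈ L 𝒟) : Commute p l := by
  rw [← commutatorElement_eq_one_iff_commute, comm_L p h.1 h.2.1 h.2.2.1 h.2.2.2, hp, zero_mul]; rfl

theorem L_comm' {p l : Pt 𝒟} (h : l ∈ L 𝒟) (ha : l.a ≠ 0) (c : Commute p l) : p.t = 0 := by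
  rw [← commutatorElement_eq_one_iff_commute, comm_L p h.1 h.2.1 h.2.2.1 h.2.2.2] at c
  exact (mul_eq_zero.1 (congrArg Pt.c c)).resolve_right ha

theorem conj_Q (p : Pt 𝒟) {q : Pt 𝒟} (h : q ∈ Q 𝒟) : p * q * p⁻¹ ∈ Q 𝒟 := by
  rw [mem_Q] at h ⊢
  pt_push; grind

theorem iT (h : 𝒟.G2) (x : K) : algebraMap F K (𝒟.T x) = x := by rw [𝒟.hT, h.1, h.1]; grind

theorem tau (h : 𝒟.G2) (v : K) {q : Pt 𝒟} (hq : q.v = 0) :
    algebraMap F K (x0 v * q * (x0 v)⁻¹).a = algebraMap F K q.a + v * q.b + v ^ 2 * q.d + algebraMap F K q.t * v ^ 3 ∧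
      (x0 v * q * (x0 v)⁻¹).b = q.b + algebraMap F K q.t * v ^ 2 ∧
      (x0 v * q * (x0 v)⁻¹).d = q.d + algebraMap F K q.t * v ∧
      algebraMap F K (x0 v * q * (x0 v)⁻¹).t = algebraMap F K q.t := by
  refine ⟨?_, ?_, ?_, ?_⟩ <;> simp only [x0] <;> pt_push <;> (try simp only [h.1, hq]) <;> grind

theorem inner {r q : Pt 𝒟} (hr : r.v = 0) (hq : q.v = 0) :
    (r * q * r⁻¹).a = q.a ∧ (r * q * r⁻¹).b = q.b ∧ (r * q * r⁻¹).d = q.d := by
  rw [show r * q * r⁻¹ = ⁅r, q⁆ * q by simp [commutatorElement_def], comm_Q hr hq]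
  simp [mul_a, mul_b, mul_d, x3, Fd.cr_zero]

end F2gx

open F2gx in
theorem f2g (hS : SET.{u}) : F2g.{u} := by
  intro G _ _ F K _ _ _ _ 𝒟 e h hG g gQ' gL' y ⟨l, hl, el⟩ ⟨p, hp, ep⟩
  by_contra yZ
  have gZ' := h.QZ gQ'
  have la : l.a ≠ 0 := fun a => yZ ⟨l, ⟨hl.1, a, hl.2⟩, el⟩
  have cm : ∀ {a b : Pt 𝒟}, Commute (e a) (e b) → Commute a b := fun c => h.inj (by rw [map_mul, map_mul, c.eq])
  have cj1 : ∀ {a b : G} (k : G), Commute a b → Commute (k * a * k⁻¹) (k * b * k⁻¹) := fun k c => c.conj k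
  have pL : p ∉ L 𝒟 := fun pL => by
    have pa : p.a ≠ 0 := fun a => yZ (by
      have := conj_mem' gZ' ⟨p, ⟨pL.1, a, pL.2⟩, ep⟩
      simpa [mul_assoc] using this)
    have nA : g ∈ 𝒩(gA e) := mem_norm_of_cj_le (by
      rintro _ ⟨_, ⟨q, hq, rfl⟩, rfl⟩
      obtain ⟨r, hr, er⟩ := conj_mem gQ' ⟨q, hq.1, rfl⟩
      refine ⟨r, ⟨hr, L_comm' pL pa (cm ?_)⟩, er⟩
      rw [er, ep, ← el]
      exact cj1 g ((L_comm hq.2 hl).map e))
    refine gL' (mem_norm_of_cj_le ?_)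
    rintro _ ⟨_, ⟨q, hq, rfl⟩, rfl⟩
    obtain ⟨r, hr, er⟩ := conj_mem nA ⟨q, ⟨hq.1, hq.2.2.2⟩, rfl⟩
    rw [← h.cA]
    refine ⟨⟨r, er⟩, mem_centralizer_iff.2 fun x hx => ?_⟩
    obtain ⟨s, hs, es⟩ := conj_mem' nA hx
    have := cj1 g ((L_comm hs.2 hq).map e)
    rw [es] at this
    simpa [mul_assoc] using this.eq
  have pp : p.d * p.b = 0 := by
    have : p * p = 1 := h.inj (by
      rw [map_mul, ep, conj_mul, ← el, ← map_mul, sq_Q hl.1, hl.2.2.1, hl.2.2.2]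
      simp [show (x3 0 : Pt 𝒟) = 1 from rfl])
    rw [sq_Q hp.1] at this
    have := congrArg (fun q : Pt 𝒟 => algebraMap F K q.c) this
    simpa [x3, show p.t = 0 from hp.2, iT hG, one_def] using this
  have nx : ∀ q : Pt 𝒟, e q ∈ 𝒩(gQ e) := fun q => mem_norm_of_cj_le (by
    rintro _ ⟨_, ⟨r, hr, rfl⟩, rfl⟩
    exact ⟨_, conj_Q q hr, by simp⟩)
  have x2' : ∀ v, (x0 v : Pt 𝒟) * x0 v = 1 := fun v => by simp only [x0]; pt_ext
  obtain ⟨t', ht'⟩ : ∃ t', t' = g * e (x0 1) * g⁻¹ := ⟨_, rfl⟩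
  have tQ : t' ∈ 𝒩(gQ e) := ht' ▸ mul_mem (mul_mem gQ' (nx _)) (inv_mem gQ')
  have tt : t' * t' = 1 := by rw [ht', conj_mul, ← map_mul, x2']; simp
  have tZ : ∀ c, t' * e (x3 c) * t'⁻¹ = e (x3 c) := fun c => by
    obtain ⟨z, hz, ez⟩ := conj_mem' gZ' ⟨_, x3_Z c, rfl⟩
    have := cj1 g ((Z_comm (x0 1) hz).map e)
    rw [ez, ← ht'] at this
    rw [mul_inv_eq_iff_eq_mul]
    simpa [mul_assoc] using this.eq
  have : ∀ q : Q 𝒟, ∃ r : Q 𝒟, e r = t' * e q * t'⁻¹ := fun q =>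
    let ⟨r, hr, er⟩ := conj_mem tQ ⟨q.1, q.2, rfl⟩
    ⟨⟨r, hr⟩, er⟩
  choose φ hφ using this
  have h2 : ∀ q, φ (φ q) = q := fun q => Subtype.ext (h.inj (by
    rw [hφ, hφ, show t' * (t' * e q * t'⁻¹) * t'⁻¹ = t' * t' * e q * (t' * t')⁻¹ by group, tt]; simp))
  have hβ : ∀ q r : Q 𝒟, algebraMap F K (φ q).1.t * algebraMap F K (φ r).1.a +
      algebraMap F K (φ r).1.t * algebraMap F K (φ q).1.a + (φ q).1.d * (φ r).1.b + (φ r).1.d * (φ q).1.b =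
      algebraMap F K q.1.t * algebraMap F K r.1.a + algebraMap F K r.1.t * algebraMap F K q.1.a + q.1.d * r.1.b +
        r.1.d * q.1.b := fun q r => by
    have : ⁅(φ q).1, (φ r).1⁆ = ⁅q.1, r.1⁆ := h.inj (by
      rw [map_commutatorElement, hφ, hφ, ← conjugate_commutatorElement, ← map_commutatorElement, comm_Q q.2 r.2, tZ])
    rw [comm_Q q.2 r.2, comm_Q (φ q).2 (φ r).2] at this
    simpa [iT hG] using congrArg (algebraMap F K) (x3_inj this)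
  have hκ : ∀ q : Q 𝒟, algebraMap F K (φ q).1.t * algebraMap F K (φ q).1.a + (φ q).1.d * (φ q).1.b =
      algebraMap F K q.1.t * algebraMap F K q.1.a + q.1.d * q.1.b := fun q => by
    have : (φ q).1 * (φ q).1 = q.1 * q.1 := h.inj (by rw [map_mul, hφ, conj_mul, ← map_mul, sq_Q q.2, tZ])
    rw [sq_Q q.2, sq_Q (φ q).2] at this
    simpa [iT hG] using congrArg (algebraMap F K) (x3_inj this)
  have fp : φ ⟨p, hp.1⟩ = ⟨p, hp.1⟩ := Subtype.ext (h.inj (by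
    rw [hφ, mul_inv_eq_iff_eq_mul, ep, ← el, ht']
    exact (cj1 g ((L_comm (p := x0 1) rfl hl).map e)).eq))
  have l1 : (x1 1 : Pt 𝒟) ∈ L 𝒟 := ⟨rfl, rfl, rfl, rfl⟩
  have hu : algebraMap F K (φ ⟨x1 1, rfl⟩).1.t = 0 := by
    obtain ⟨r, hr, er⟩ := conj_mem' gQ' ⟨x1 1, l1.1, rfl⟩
    have er' : e (x1 1) = g * e r * g⁻¹ := by rw [er]; group
    have rt : r.t = 0 := L_comm' hl la (cm (by
      have := cj1 g⁻¹ ((L_comm hp.2 l1).map e)
      rw [er', ep, ← el] at this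
      simpa [mul_assoc] using this.symm))
    have cL : ⁅(x0 1 : Pt 𝒟), r⁆ ∈ L 𝒟 := ⟨comm_v _ _, by rw [comm_A_b _ hr rt, hG.cr_eq],
      by rw [comm_d, rt, show r.v = 0 from hr]; simp, comm_t _ _⟩
    have c : Commute ((x0 1 : Pt 𝒟) * r * (x0 1)⁻¹) r := by
      rw [show (x0 1 : Pt 𝒟) * r * (x0 1)⁻¹ = ⁅(x0 1 : Pt 𝒟), r⁆ * r by simp [commutatorElement_def]]
      exact (L_comm rt cL).symm.mul_left (Commute.refl r)
    rw [L_comm' l1 one_ne_zero (cm (a := φ ⟨x1 1, rfl⟩) ?_), map_zero]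
    rw [hφ, er', ht']
    simpa [mul_assoc] using cj1 g (c.map e)
  have ess := hS G _ _ _ (h.essQ fun k => gL' (k gQ'))
  have iv : ∀ v, v ≠ 0 → Iv (gS e) (gQ e) (e (x0 v)) := fun v hv =>
    ⟨⟨_, rfl⟩, nx _, fun ⟨q, hq, eq⟩ => hv (by rw [h.inj eq] at hq; exact hq), by rw [← map_mul, x2']; simp⟩
  have key : ∀ (P : K → Pt 𝒟 → Prop) (c : K) (s : K → K) (q0 : Q 𝒟), P 0 q0 → (∀ μ (q : Q 𝒟), P μ q → P (μ + c) (φ q)) →
      (∀ v μ (q : Q 𝒟), P μ q → P (μ + s v) (x0 v * q.1 * (x0 v)⁻¹)) →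
      (∀ μ (r : Q 𝒟), P μ (r.1 * q0.1 * r.1⁻¹) → μ = 0) →
      (∀ v, s v = s 1 → v = 1) → False := fun P c s q0 h0 h1 h3 h4 h5 => by
    have k : ∀ v, v ≠ 0 → c + s v = 0 := fun v hv => by
      obtain ⟨n, ⟨m, rfl⟩, r, hr, er⟩ := (ess.od gQ' (fun k => gL' k.2) (iv v hv) (iv 1 one_ne_zero)).1
      rw [← ht'] at er
      have it : ∀ k : ℕ, ∃ q : Q 𝒟, e q = (e (x0 v) * t') ^ k * e q0 * ((e (x0 v) * t') ^ k)⁻¹ ∧
          P (k * (c + s v)) q := fun k => by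
        induction k with
        | zero => exact ⟨q0, by simp, by simpa using h0⟩
        | succ k ih =>
          obtain ⟨q, e1, e2⟩ := ih
          refine ⟨⟨_, conj_Q (x0 v) (φ q).2⟩, ?_, ?_⟩
          · simp only [map_mul, map_inv]
            rw [hφ, e1, pow_succ']
            simp only [mul_assoc, mul_inv_rev]
          · convert h3 v _ _ (h1 _ _ e2) using 1
            push_cast; ring
      obtain ⟨q, e1, e2⟩ := it (2 * m + 1)
      rw [← er, ← map_inv, ← map_mul, ← map_mul] at e1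
      rw [h.inj e1] at e2
      have := h4 _ ⟨r, hr⟩ e2
      push_cast at this
      grind
    have := h.finK
    have := Fintype.ofFinite K
    classical
    have four := h.four
    obtain ⟨v, -, hv⟩ := Finset.exists_mem_notMem_of_card_lt_card (s := {0, 1}) (t := (Finset.univ : Finset K)) (by
      rw [Finset.card_univ, ← Nat.card_eq_fintype_card]
      exact Finset.card_le_two.trans_lt (by omega))
    rw [Finset.mem_insert, Finset.mem_singleton, not_or] at hv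
    exact hv.2 (h5 v (add_left_cancel ((k v hv.1).trans (k 1 one_ne_zero).symm)))
  have pt : algebraMap F K p.t = 0 := by rw [show p.t = 0 from hp.2, map_zero]
  by_cases pb : p.b = 0
  · have pd : p.d ≠ 0 := fun k => pL ⟨hp.1, pb, k, hp.2⟩
    obtain ⟨c, hc⟩ := pure (fun q : Q 𝒟 => algebraMap F K q.1.a) (fun q => q.1.d) (fun q => q.1.b)
      (fun q => algebraMap F K q.1.t) φ (ea := ⟨x1 1, rfl⟩) (eb := ⟨x4 1, rfl⟩) (ed := ⟨x2 1, rfl⟩)
      (et := ⟨x5 1, rfl⟩) (y := ⟨p, hp.1⟩) (by simp [x1]) (by simp [x4]) (by simp [x2]) (by simp [x5]) h2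
      (fun q r => by linear_combination hβ q r) (fun q => by linear_combination hκ q) hu ⟨pd, pb, pt, fp⟩
    refine key (fun μ q => algebraMap F K q.a = μ * q.b ∧ q.d = μ * algebraMap F K q.t) c id ⟨x2 1, rfl⟩
      (by simp [x2]) hc (fun v μ q ⟨a, b⟩ => ?_) (fun μ r ⟨a, _⟩ => ?_) fun _ => id
    · obtain ⟨e1, e2, e3, e4⟩ := tau hG v q.2
      rw [e1, e2, e3, e4, a, b, id]
      constructor <;> grind
    · obtain ⟨e1, e2, -⟩ := inner (q := x2 1) r.2 rfl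
      rw [e1, e2] at a
      simpa [x2] using a.symm
  · obtain ⟨c, hc⟩ := pure (fun q : Q 𝒟 => algebraMap F K q.1.a) (fun q => q.1.b) (fun q => q.1.d)
      (fun q => algebraMap F K q.1.t) φ (ea := ⟨x1 1, rfl⟩) (eb := ⟨x2 1, rfl⟩) (ed := ⟨x4 1, rfl⟩)
      (et := ⟨x5 1, rfl⟩) (y := ⟨p, hp.1⟩) (by simp [x1]) (by simp [x2]) (by simp [x4]) (by simp [x5]) h2
      hβ hκ hu ⟨pb, (mul_eq_zero.1 pp).resolve_right pb, pt, fp⟩
    refine key (fun μ q => algebraMap F K q.a = μ * q.d ∧ q.b = μ * algebraMap F K q.t) c (· ^ 2) ⟨x4 1, rfl⟩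
      (by simp [x4]) hc (fun v μ q ⟨a, b⟩ => ?_) (fun μ r ⟨a, _⟩ => ?_) fun v hv => ?_
    · obtain ⟨e1, e2, e3, e4⟩ := tau hG v q.2
      rw [e1, e2, e3, e4, a, b]
      constructor <;> grind
    · obtain ⟨e1, -, e2⟩ := inner (q := x4 1) r.2 rfl
      rw [e1, e2] at a
      simpa [x4] using a.symm
    · have : (v + 1) ^ 2 = 0 := by grind
      have := pow_eq_zero_iff two_ne_zero |>.1 this
      grind

end CL.SY
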