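/-
Project SY (S1770): the commutator relations give a copy of `Pt`.
-/
import Cfsg.Agent.SY.Defs2

set_option autoImplicit false

namespace CL.SY

open Subgroup Cfsg CL.FW CL.HX
open scoped commutatorElement

namespace MOD1x

variable {Γ : Type} [Group Γ] {F K : Type} [Field F] [Field K] [Algebra F K] [CharP K 2] {𝒟 : Fd F K}
  {P : Pre Γ F K}

/-- the unipotent relations in the coordinates of `𝒟` -/
structure UR (𝒟 : Fd F K) (P : Pre Γ F K) : Prop where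
  c01 : ∀ v t, Commute (P.x0 v) (P.x1 t)
  c02 : ∀ v y, ⁅P.x0 v, P.x2 y⁆ = P.x1 (𝒟.T (v * y))
  c03 : ∀ v t, Commute (P.x0 v) (P.x3 t)
  c04 : ∀ v y, ⁅P.x0 v, P.x4 y⁆ = P.x1 (𝒟.T (𝒟.adj v * y)) * P.x2 (𝒟.cr v y) * P.x3 (𝒟.T (𝒟.adj y * v))
  c05 : ∀ v t, ⁅P.x0 v, P.x5 t⁆ = P.x1 (t * 𝒟.N v) * P.x2 (t • 𝒟.adj v) * P.x3 (t ^ 2 * 𝒟.N v) * P.x4 (t • v)
  c12 : ∀ t v, Commute (P.x1 t) (P.x2 v)
  c13 : ∀ t s, Commute (P.x1 t) (P.x3 s)
  c14 : ∀ t v, Commute (P.x1 t) (P.x4 v)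
  c15 : ∀ t s, ⁅P.x1 t, P.x5 s⁆ = P.x3 (t * s)
  c23 : ∀ v t, Commute (P.x2 v) (P.x3 t)
  c24 : ∀ v y, ⁅P.x2 v, P.x4 y⁆ = P.x3 (𝒟.T (v * y))
  c25 : ∀ v t, Commute (P.x2 v) (P.x5 t)
  c34 : ∀ t v, Commute (P.x3 t) (P.x4 v)
  c35 : ∀ t s, Commute (P.x3 t) (P.x5 s)
  c45 : ∀ v t, Commute (P.x4 v) (P.x5 t)

omit [CharP K 2] in
theorem adj_eq {n : K →*₀ F} (hn : ∀ x, n x = 𝒟.N x) (v : K) : HX.adj (algebraMap F K) n v = 𝒟.adj v := by
  rw [HX.adj, hn, 𝒟.hN, Fd.adj]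
  rcases eq_or_ne v 0 with rfl | hv
  · simp
  · field_simp

theorem ur {n : K →*₀ F} {T : K →+ F} {h : ∀ t, n (algebraMap F K t) = t ^ 3}
    (r : HX.Rel2 P (HX.cst (algebraMap F K) n T h)) (hn : ∀ x, n x = 𝒟.N x) (hT : ∀ x, T x = 𝒟.T x) : UR 𝒟 P where
  c01 := r.c01
  c02 v y := by rw [r.c02, ← hT]; rfl
  c03 := r.c03
  c04 v y := by
    have e : 𝒟.cr v y = 𝒟.adj (v + y) + 𝒟.adj v + 𝒟.adj y := by rw [𝒟.adj_add]; grind
    rw [r.c04, e, ← hT, ← hT, ← adj_eq hn, ← adj_eq hn, ← adj_eq hn]; rfl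
  c05 v t := by rw [r.c05, Algebra.smul_def, Algebra.smul_def, ← hn, ← adj_eq hn]; rfl
  c12 := r.c12
  c13 := r.c13
  c14 := r.c14
  c15 := r.c15
  c23 := r.c23
  c24 v y := by rw [r.c24, ← hT]; rfl
  c25 := r.c25
  c34 := r.c34
  c35 := r.c35
  c45 := r.c45

/-- the product of the root elements -/
def ff (P : Pre Γ F K) (p : Pt 𝒟) : Γ := P.x0 p.v * P.x1 p.a * P.x2 p.b * P.x3 p.c * P.x4 p.d * P.x5 p.t

theorem sw {a b c : Γ} (ha : a * a = 1) (e : ⁅a, b⁆ = c) (x : Γ) : b * (a * x) = a * (c * (b * x)) := by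
  rw [← e, commutatorElement_def, inv_eq_of_mul_eq_one_right ha]
  calc _ = (a * a) * b * a * x := by rw [ha]; group
    _ = _ := by group

theorem ff_mul (h : UR 𝒟 P) (p q : Pt 𝒟) : ff P (p * q) = ff P p * ff P q := by
  have := 𝒟.charF
  have s0 : ∀ v, P.x0 v * P.x0 v = 1 := fun v => by rw [← x0_add, CharTwo.add_self_eq_zero, x0_zero]
  have s1 : ∀ v, P.x1 v * P.x1 v = 1 := fun v => by rw [← x1_add, CharTwo.add_self_eq_zero, x1_zero]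
  have s2 : ∀ v, P.x2 v * P.x2 v = 1 := fun v => by rw [← x2_add, CharTwo.add_self_eq_zero, x2_zero]
  have r20 := fun v y => sw (s0 v) (h.c02 v y)
  have r40 := fun v y => sw (s0 v) (h.c04 v y)
  have r50 := fun v y => sw (s0 v) (h.c05 v y)
  have r51 := fun v y => sw (s1 v) (h.c15 v y)
  have r42 := fun v y => sw (s2 v) (h.c24 v y)
  have m0 : ∀ s t x, P.x0 s * (P.x0 t * x) = P.x0 (s + t) * x := fun s t x => by rw [x0_add, mul_assoc]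
  have m1 : ∀ s t x, P.x1 s * (P.x1 t * x) = P.x1 (s + t) * x := fun s t x => by rw [x1_add, mul_assoc]
  have m2 : ∀ s t x, P.x2 s * (P.x2 t * x) = P.x2 (s + t) * x := fun s t x => by rw [x2_add, mul_assoc]
  have m3 : ∀ s t x, P.x3 s * (P.x3 t * x) = P.x3 (s + t) * x := fun s t x => by rw [x3_add, mul_assoc]
  have m4 : ∀ s t x, P.x4 s * (P.x4 t * x) = P.x4 (s + t) * x := fun s t x => by rw [x4_add, mul_assoc]
  symm
  simp only [ff, mul_assoc, r20, r40, r50, r51, r42, m0, m1, m2, m3, m4, ← x5_add,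
    fun s t => (h.c01 s t).symm.left_comm, fun s t => (h.c03 s t).symm.left_comm,
    fun s t => (h.c12 s t).symm.left_comm, fun s t => (h.c13 s t).symm.left_comm,
    fun s t => (h.c14 s t).symm.left_comm, fun s t => (h.c23 s t).symm.left_comm,
    fun s t => (h.c25 s t).symm.left_comm, fun s t => (h.c34 s t).symm.left_comm,
    fun s t => (h.c35 s t).symm.left_comm, fun s t => (h.c45 s t).symm.left_comm]
  have k : ∀ {v v' b b' d d' : K} {a a' c c' t t' : F}, v = v' → algebraMap F K a = algebraMap F K a' → b = b' →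
      algebraMap F K c = algebraMap F K c' → d = d' → t = t' →
      P.x0 v * (P.x1 a * (P.x2 b * (P.x3 c * (P.x4 d * P.x5 t)))) =
        P.x0 v' * (P.x1 a' * (P.x2 b' * (P.x3 c' * (P.x4 d' * P.x5 t')))) := fun e0 e1 e2 e3 e4 e5 => by
    rw [e0, 𝒟.inj e1, e2, 𝒟.inj e3, e4, e5]
  clear r20 r40 r50 r51 r42 m0 m1 m2 m3 m4 s0 s1 s2 h
  refine k rfl ?_ ?_ ?_ ?_ rfl <;> clear k <;> pt_push <;> grind

omit [CharP K 2] in
theorem ff_mem (p : Pt 𝒟) : ff P p ∈ P.G0 := by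
  have a : ∀ g, P.φa g ∈ P.G0 := fun g => mem_sup_left ⟨g, rfl⟩
  have b : ∀ g, P.φb g ∈ P.G0 := fun g => mem_sup_right ⟨g, rfl⟩
  have c : ∀ {g x : Γ}, g ∈ P.G0 → x ∈ P.G0 → g * x * g⁻¹ ∈ P.G0 := fun hg hx => mul_mem (mul_mem hg hx) (inv_mem hg)
  exact mul_mem (mul_mem (mul_mem (mul_mem (mul_mem (a _) (c (a _) (b _))) (c (a _) (c (b _) (a _))))
    (c (b _) (c (a _) (b _)))) (c (b _) (a _))) (b _)

end MOD1x

theorem mod1 : MOD1 := by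
  intro Γ _ F K _ _ _ _ 𝒟 P n T h r hn hT
  have u := MOD1x.ur r hn hT
  refine ⟨MonoidHom.mk' (fun p => ⟨MOD1x.ff P p, MOD1x.ff_mem p⟩) fun p q => Subtype.ext (MOD1x.ff_mul u p q),
    (injective_iff_map_eq_one _).2 fun p e => ?_⟩
  obtain ⟨e0, e1, e2, e3, e4, e5⟩ := r.nf _ _ _ _ _ _ (congrArg Subtype.val e)
  exact Pt.ext e0 e1 e2 e3 e4 e5

end CL.SY
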