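/-
Project SY (S1770): the case `³D₄(2)`, long root elements in `Q` and the family of `B` (job SY-Q1, helper27).
-/
import Cfsg.Agent.SY.Defs

set_option autoImplicit false

namespace CL.SY

open Subgroup Cfsg CL.Even CL.Grp
open scoped commutatorElement

universe u

namespace Q1x

variable {F K : Type} [Field F] [Field K] [Algebra F K] {𝒟 : Fd F K}

/-- `Q / Z` with coordinates `(a, b, d, t)` -/
abbrev V (F K : Type) : Type := F × K × K × F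

def bar (p : Pt 𝒟) : V F K := (p.a, p.b, p.d, p.t)
def lift (𝒟 : Fd F K) (x : V F K) : Pt 𝒟 := ⟨0, x.1, x.2.1, 0, x.2.2.1, x.2.2.2⟩
def bet (𝒟 : Fd F K) (x y : V F K) : F :=
  x.2.2.2 * y.1 + y.2.2.2 * x.1 + 𝒟.T (x.2.2.1 * y.2.1) + 𝒟.T (y.2.2.1 * x.2.1)
def kap (𝒟 : Fd F K) (x : V F K) : F := x.2.2.2 * x.1 + 𝒟.T (x.2.2.1 * x.2.1)
def l0 : V F K := (1, 0, 0, 0)

theorem bar_lift (x : V F K) : bar (lift 𝒟 x) = x := rfl
theorem lift_v (x : V F K) : (lift 𝒟 x).v = 0 := rfl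

theorem bar_mul (p : Pt 𝒟) {q : Pt 𝒟} (hq : q.v = 0) : bar (p * q) = bar p + bar q := by
  simp [bar, Pt.mul_a, Pt.mul_b, Pt.mul_d, Pt.mul_t, hq, Fd.N_zero, Fd.adj_zero, 𝒟.cr_comm 0, Fd.cr_zero]

theorem bar_x3 (c : F) : bar (Pt.x3 c : Pt 𝒟) = 0 := rfl
theorem x3_v (c : F) : (Pt.x3 c : Pt 𝒟).v = 0 := rfl

theorem eq_lift {p : Pt 𝒟} (hp : p.v = 0) : p = lift 𝒟 (bar p) * Pt.x3 p.c := by
  apply Pt.ext <;>
    simp [bar, lift, Pt.x3, Pt.mul_v, Pt.mul_a, Pt.mul_b, Pt.mul_c, Pt.mul_d, Pt.mul_t, hp, Fd.N_zero, Fd.adj_zero,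
      𝒟.cr_comm 0, Fd.cr_zero]

theorem x3_inj {c c' : F} (h : (Pt.x3 c : Pt 𝒟) = Pt.x3 c') : c = c' := congrArg Pt.c h

theorem two {F : Type} [Field F] (h : Nat.card F = 2) (c : F) : c = 0 ∨ c = 1 := by
  by_contra hc
  push Not at hc
  obtain ⟨y, -, hy⟩ := (Nat.card_eq_two_iff' (0 : F)).1 h
  exact hc.2 ((hy c hc.1).trans (hy 1 one_ne_zero).symm)

variable [CharP K 2]

theorem x3_zero : (Pt.x3 0 : Pt 𝒟) = 1 := rfl

theorem eq_mul_x3 {p q : Pt 𝒟} (hp : p.v = 0) (hq : q.v = 0) (h : bar p = bar q) : ∃ c, p = q * Pt.x3 c := by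
  refine ⟨p.c - q.c, ?_⟩
  simp only [bar, Prod.mk.injEq] at h
  apply Pt.ext <;>
    simp [Pt.x3, Pt.mul_v, Pt.mul_a, Pt.mul_b, Pt.mul_c, Pt.mul_d, Pt.mul_t, hp, hq, h.1, h.2.1, h.2.2.1, h.2.2.2,
      Fd.N_zero, Fd.adj_zero, 𝒟.cr_comm 0, Fd.cr_zero]

theorem comm_bet {p q : Pt 𝒟} (hp : p.v = 0) (hq : q.v = 0) : ⁅p, q⁆ = Pt.x3 (bet 𝒟 (bar p) (bar q)) :=
  Pt.comm_Q hp hq

theorem sq_kap {p : Pt 𝒟} (hp : p.v = 0) : p * p = Pt.x3 (kap 𝒟 (bar p)) := Pt.sq_Q hp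

theorem conj_v (s : Pt 𝒟) {p : Pt 𝒟} (hp : p.v = 0) : (s * p * s⁻¹).v = 0 := by
  rw [Pt.mul_v, Pt.mul_v, Pt.inv_v, hp, add_zero, CharTwo.add_self_eq_zero]

theorem conj_eq (s p : Pt 𝒟) : s * p * s⁻¹ = ⁅s, p⁆ * p := by simp [commutatorElement_def]

variable {G : Type u} [Group G] (e : Pt 𝒟 →* G)

noncomputable def ph (g : G) (p : Pt 𝒟) : Pt 𝒟 := haveI : Nonempty (Pt 𝒟) := ⟨1⟩; Function.invFun e (g * e p * g⁻¹)

noncomputable def M (g : G) (x : V F K) : V F K := bar (ph e g (lift 𝒟 x))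

variable {e}

theorem ph_eq (h : St e) {g : G} {p q : Pt 𝒟} (hq : g * e p * g⁻¹ = e q) : ph e g p = q := by
  haveI : Nonempty (Pt 𝒟) := ⟨1⟩
  unfold ph
  rw [hq]
  exact Function.leftInverse_invFun h.inj q

theorem ph_spec (h : St e) {g : G} (hg : g ∈ 𝒩(gQ e)) {p : Pt 𝒟} (hp : p.v = 0) :
    e (ph e g p) = g * e p * g⁻¹ ∧ (ph e g p).v = 0 := by
  obtain ⟨q, hq, hqe⟩ := conj_mem hg (mem_map_of_mem e (Pt.mem_Q.2 hp))
  rw [ph_eq h hqe.symm]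
  exact ⟨hqe, hq⟩

theorem ph_mul (h : St e) {g : G} (hg : g ∈ 𝒩(gQ e)) {p q : Pt 𝒟} (hp : p.v = 0) (hq : q.v = 0) :
    ph e g (p * q) = ph e g p * ph e g q := by
  refine ph_eq h ?_
  rw [map_mul, map_mul, (ph_spec h hg hp).1, (ph_spec h hg hq).1]
  group

theorem ph_comm (h : St e) {g : G} (hg : g ∈ 𝒩(gQ e)) {p q : Pt 𝒟} (hp : p.v = 0) (hq : q.v = 0) :
    ph e g ⁅p, q⁆ = ⁅ph e g p, ph e g q⁆ := by
  refine ph_eq h ?_
  rw [map_commutatorElement, map_commutatorElement, (ph_spec h hg hp).1, (ph_spec h hg hq).1]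
  simp only [commutatorElement_def]
  group

theorem ph_ph (h : St e) {g k : G} (hg : g ∈ 𝒩(gQ e)) (hk : k ∈ 𝒩(gQ e)) {p : Pt 𝒟} (hp : p.v = 0) :
    ph e (g * k) p = ph e g (ph e k p) := by
  refine ph_eq h ?_
  rw [(ph_spec h hg (ph_spec h hk hp).2).1, (ph_spec h hk hp).1]
  group

theorem ph_e (h : St e) (s p : Pt 𝒟) : ph e (e s) p = s * p * s⁻¹ := ph_eq h (by simp)

theorem ph_x3 (h : St2 e) (h2 : Nat.card F = 2) {g : G} (hg : g ∈ 𝒩(gQ e)) (c : F) : ph e g (Pt.x3 c) = Pt.x3 c := by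
  rcases two h2 c with rfl | rfl
  · exact ph_eq h.toSt (by simp [x3_zero])
  · obtain ⟨q, hq, hqe⟩ := conj_mem (h.QZ hg) (mem_map_of_mem e (show Pt.x3 1 ∈ Pt.Z 𝒟 from ⟨rfl, rfl, rfl, rfl, rfl⟩))
    rw [ph_eq h.toSt hqe.symm]
    obtain ⟨h0, h1, h2', h4, h5⟩ := Pt.mem_Z.1 hq
    have hq' : q = Pt.x3 q.c := Pt.ext h0 h1 h2' rfl h4 h5
    rcases two h2 q.c with hc | hc
    · rw [hc, x3_zero] at hq'
      rw [hq', map_one] at hqe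
      have : e (Pt.x3 1) = e (Pt.x3 0) := by
        rw [x3_zero, map_one]
        simpa using hqe.symm
      exact absurd (x3_inj (h.inj this)) one_ne_zero
    · rw [hq', hc]

theorem bar_ph (h : St2 e) (h2 : Nat.card F = 2) {g : G} (hg : g ∈ 𝒩(gQ e)) {p : Pt 𝒟} (hp : p.v = 0) :
    bar (ph e g p) = M e g (bar p) := by
  conv_lhs => rw [eq_lift hp]
  rw [ph_mul h.toSt hg (lift_v _) (x3_v _), ph_x3 h h2 hg, bar_mul _ (x3_v _), bar_x3, add_zero]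
  rfl

theorem M_mul (h : St2 e) (h2 : Nat.card F = 2) {g k : G} (hg : g ∈ 𝒩(gQ e)) (hk : k ∈ 𝒩(gQ e)) (x : V F K) :
    M e (g * k) x = M e g (M e k x) := by
  rw [M, ph_ph h.toSt hg hk (lift_v _), bar_ph h h2 hg (ph_spec h.toSt hk (lift_v _)).2]
  rfl

theorem M_add (h : St2 e) (h2 : Nat.card F = 2) {g : G} (hg : g ∈ 𝒩(gQ e)) (x y : V F K) :
    M e g (x + y) = M e g x + M e g y := by
  have : x + y = bar (lift 𝒟 x * lift 𝒟 y) := by rw [bar_mul _ (lift_v _)]; rfl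
  rw [this, ← bar_ph h h2 hg (by rw [Pt.mul_v, lift_v, lift_v, add_zero]), ph_mul h.toSt hg (lift_v _) (lift_v _),
    bar_mul _ (ph_spec h.toSt hg (lift_v _)).2]
  rfl

theorem M_bet (h : St2 e) (h2 : Nat.card F = 2) {g : G} (hg : g ∈ 𝒩(gQ e)) (x y : V F K) :
    bet 𝒟 (M e g x) (M e g y) = bet 𝒟 x y := by
  have h1 := ph_comm h.toSt hg (lift_v x) (lift_v y)
  rw [comm_bet (lift_v x) (lift_v y), ph_x3 h h2 hg,
    comm_bet (ph_spec h.toSt hg (lift_v _)).2 (ph_spec h.toSt hg (lift_v _)).2] at h1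
  exact (x3_inj h1).symm

theorem M_kap (h : St2 e) (h2 : Nat.card F = 2) {g : G} (hg : g ∈ 𝒩(gQ e)) (x : V F K) :
    kap 𝒟 (M e g x) = kap 𝒟 x := by
  have h1 := ph_mul h.toSt hg (lift_v x) (lift_v x)
  rw [sq_kap (lift_v x), ph_x3 h h2 hg, sq_kap (ph_spec h.toSt hg (lift_v _)).2] at h1
  exact (x3_inj h1).symm

theorem M_e (h : St e) (s : Pt 𝒟) (x : V F K) : M e (e s) x = bar ⁅s, lift 𝒟 x⁆ + x := by
  rw [M, ph_e h, conj_eq, bar_mul _ (lift_v _), bar_lift]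

theorem M_Q (h : St e) {g : G} (hg : g ∈ gQ e) (x : V F K) : M e g x = x := by
  obtain ⟨s, hs, rfl⟩ := hg
  rw [M_e h, comm_bet hs (lift_v _), bar_x3, zero_add]

theorem M_one (h : St e) (x : V F K) : M e 1 x = x := M_Q h (one_mem _) x

theorem M_inv (h : St2 e) (h2 : Nat.card F = 2) {g : G} (hg : g ∈ 𝒩(gQ e)) (x : V F K) : M e g⁻¹ (M e g x) = x := by
  rw [← M_mul h h2 (inv_mem hg) hg, inv_mul_cancel, M_one h.toSt]

theorem M_inv' (h : St2 e) (h2 : Nat.card F = 2) {g : G} (hg : g ∈ 𝒩(gQ e)) (x : V F K) : M e g (M e g⁻¹ x) = x := by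
  rw [← M_mul h h2 hg (inv_mem hg), mul_inv_cancel, M_one h.toSt]

theorem M_zero (h : St2 e) (h2 : Nat.card F = 2) {g : G} (hg : g ∈ 𝒩(gQ e)) : M e g (0 : V F K) = 0 := by
  have := M_add h h2 hg (0 : V F K) 0
  rw [add_zero] at this
  exact left_eq_add.1 this

theorem e_mem (s : Pt 𝒟) [Finite G] : e s ∈ 𝒩(gQ e) := mem_norm_of_cj_le (by
  rintro _ ⟨_, ⟨p, hp, rfl⟩, rfl⟩
  exact ⟨s * p * s⁻¹, conj_v s hp, by simp⟩)

theorem M_x0_t (h : St e) (w : K) (x : V F K) : (M e (e (Pt.x0 w)) x).2.2.2 = x.2.2.2 := by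
  rw [M_e h]
  change ⁅(Pt.x0 w : Pt 𝒟), lift 𝒟 x⁆.t + _ = _
  rw [Pt.comm_t, zero_add]

theorem M_x0_d (h : St e) (w : K) (x : V F K) (hx : x.2.2.2 = 1) : (M e (e (Pt.x0 w)) x).2.2.1 = x.2.2.1 + w := by
  rw [M_e h]
  change ⁅(Pt.x0 w : Pt 𝒟), lift 𝒟 x⁆.d + _ = _
  rw [Pt.comm_d]
  simp [lift, Pt.x0, hx, add_comm]

theorem M_x0_B (h : St e) {w : K} {x : V F K} (h4 : x.2.2.1 = 0) (h5 : x.2.2.2 = 0) (hw : 𝒟.T (w * x.2.1) = 0) :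
    M e (e (Pt.x0 w)) x = x := by
  rw [M_e h, Pt.comm_RB (p := Pt.x0 w) rfl (lift_v x) h4 h5, bar_mul _ (x3_v _), bar_x3, add_zero]
  change bar (Pt.x1 (𝒟.T (w * x.2.1)) : Pt 𝒟) + x = x
  rw [hw]
  exact zero_add x

theorem bar_L (h2 : Nat.card F = 2) {p : Pt 𝒟} (hp : p ∈ Pt.L 𝒟) : bar p = 0 ∨ bar p = l0 := by
  obtain ⟨-, h2', h4, h5⟩ := Pt.mem_L.1 hp
  rcases two h2 p.a with ha | ha <;> simp [bar, l0, ha, h2', h4, h5]

theorem mem_L_of {p : Pt 𝒟} (hp : p.v = 0) (h : bar p = 0 ∨ bar p = l0) : p ∈ Pt.L 𝒟 := by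
  rcases h with h | h <;> simp only [bar, l0, Prod.mk.injEq, Prod.mk_eq_zero] at h <;>
    exact ⟨hp, h.2.1, h.2.2.1, h.2.2.2⟩

theorem l0_ne : (l0 : V F K) ≠ 0 := fun h => one_ne_zero (congrArg Prod.fst h)

theorem M_l0_iff [Finite G] (h : St2 e) (h2 : Nat.card F = 2) {g : G} (hg : g ∈ 𝒩(gQ e)) :
    g ∈ 𝒩(gL e) ↔ M e g (l0 : V F K) = l0 := by
  constructor
  · intro hL
    obtain ⟨q, hq, hqe⟩ := conj_mem hL (mem_map_of_mem e (show lift 𝒟 l0 ∈ Pt.L 𝒟 from ⟨rfl, rfl, rfl, rfl⟩))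
    have h1 : M e g l0 = bar q := by rw [M, ph_eq h.toSt hqe.symm]
    rcases bar_L h2 hq with h0 | h0
    · rw [h0] at h1
      have := M_inv h h2 hg (l0 : V F K)
      rw [h1, M_zero h h2 (inv_mem hg)] at this
      exact absurd this.symm l0_ne
    · rw [h1, h0]
  · intro hl
    refine mem_norm_of_cj_le ?_
    rintro _ ⟨_, ⟨p, hp, rfl⟩, rfl⟩
    refine ⟨ph e g p, mem_L_of (ph_spec h.toSt hg hp.1).2 ?_, by simpa using (ph_spec h.toSt hg hp.1).1⟩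
    rw [bar_ph h h2 hg hp.1]
    rcases bar_L h2 hp with h0 | h0
    · rw [h0, M_zero h h2 hg]; exact Or.inl rfl
    · rw [h0, hl]; exact Or.inr rfl

theorem M_l0 [Finite G] (h : St3 e) (h2 : Nat.card F = 2) {g : G} (hg : g ∈ 𝒩(gQ e)) :
    M e g (l0 : V F K) = l0 ∨ (M e g (l0 : V F K)).2.2.2 = 1 := by
  by_cases hL : g ∈ 𝒩(gL e)
  · exact Or.inl ((M_l0_iff h.toSt2 h2 hg).1 hL)
  refine Or.inr ((two h2 _).resolve_left fun h0 => ?_)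
  obtain ⟨h1, h1'⟩ := ph_spec h.toSt hg (lift_v (𝒟 := 𝒟) l0)
  obtain ⟨q, hq, hqe⟩ := h.q1 g hg hL _ (mem_map_of_mem e (show lift 𝒟 l0 ∈ Pt.L 𝒟 from ⟨rfl, rfl, rfl, rfl⟩))
    ⟨_, ⟨h1', h0⟩, h1⟩
  rw [h.inj hqe] at hq
  exact one_ne_zero (α := F) hq.2.1

variable (e) in
/-- the orbit of the long root element -/
def D (x : V F K) : Prop := ∃ g ∈ 𝒩(gQ e), M e g l0 = x

theorem D.M (h : St2 e) (h2 : Nat.card F = 2) {g : G} (hg : g ∈ 𝒩(gQ e)) {x : V F K} (hx : D e x) : D e (M e g x) := by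
  obtain ⟨k, hk, rfl⟩ := hx
  exact ⟨g * k, mul_mem hg hk, M_mul h h2 hg hk _⟩

theorem D.t [Finite G] (h : St3 e) (h2 : Nat.card F = 2) {x : V F K} (hx : D e x) : x = l0 ∨ x.2.2.2 = 1 := by
  obtain ⟨k, hk, rfl⟩ := hx
  exact M_l0 h h2 hk

omit [CharP K 2] in
theorem bet_l0 (x : V F K) : bet 𝒟 l0 x = x.2.2.2 := by simp [bet, l0]

theorem D.eq [Finite G] (h : St3 e) (h2 : Nat.card F = 2) {x y : V F K} (hx : D e x) (hy : D e y)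
    (hb : bet 𝒟 x y = 0) : x = y := by
  obtain ⟨k, hk, rfl⟩ := hx
  rw [← M_inv' h.toSt2 h2 hk y, M_bet h.toSt2 h2 hk, bet_l0] at hb
  rcases D.t h h2 (D.M h.toSt2 h2 (inv_mem hk) hy) with h1 | h1
  · rw [← M_inv' h.toSt2 h2 hk y, h1]
  · rw [h1] at hb; exact absurd hb one_ne_zero

theorem D.kap (h : St2 e) (h2 : Nat.card F = 2) {x : V F K} (hx : D e x) : kap 𝒟 x = 0 := by
  obtain ⟨k, hk, rfl⟩ := hx
  rw [M_kap h h2 hk]
  simp [Q1x.kap, l0]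

theorem D.d [Finite G] (h : St3 e) (h2 : Nat.card F = 2) {x y : V F K} (hx : D e x) (hy : D e y)
    (x5 : x.2.2.2 = 1) (y5 : y.2.2.2 = 1) (hd : x.2.2.1 = y.2.2.1) : x = y := by
  refine D.eq h h2 hx hy ?_
  have k1 := D.kap h.toSt2 h2 hx
  have k2 := D.kap h.toSt2 h2 hy
  simp only [Q1x.kap, bet, x5, y5, hd, one_mul] at k1 k2 ⊢
  linear_combination k1 + k2

theorem D.ex [Finite G] (h : Fu e) (h2 : Nat.card F = 2) (d : K) : ∃ x, D e x ∧ x.2.2.2 = 1 ∧ x.2.2.1 = d := by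
  obtain ⟨k, hk, hL⟩ := SetLike.not_le_iff_exists.1 h.nQ
  have h5 := (M_l0 h.toSt3 h2 hk).resolve_left fun h0 => hL ((M_l0_iff h.toSt2 h2 hk).2 h0)
  refine ⟨Q1x.M e (e (Pt.x0 ((Q1x.M e k l0).2.2.1 + d))) (Q1x.M e k l0), D.M h.toSt2 h2 (e_mem _) ⟨k, hk, rfl⟩,
    (M_x0_t h.toSt _ _).trans h5, ?_⟩
  rw [M_x0_d h.toSt _ _ h5, ← add_assoc, CharTwo.add_self_eq_zero, zero_add]

theorem U4 (hL : 𝒟.LA) (hD : 𝒟.D4) (h2 : Nat.card F = 2) {b w : K} (hb : b ≠ 0) (hw : 𝒟.T (w * b) = 0) (w0 : w ≠ 0) :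
    ∃ w₁, 𝒟.T (w₁ * b) = 0 ∧ w₁ ≠ 0 ∧ w₁ ≠ w ∧ ∀ z, 𝒟.T (z * b) = 0 → z = 0 ∨ z = w ∨ z = w₁ ∨ z = w + w₁ := by
  obtain ⟨x, y, hx, hy, rfl⟩ := hL.ex2 hD b hb
  have x0 : x ≠ 0 := by rintro rfl; exact hb (by rw [𝒟.cr_comm, 𝒟.cr_zero])
  have y0 : y ≠ 0 := by rintro rfl; exact hb (𝒟.cr_zero _)
  have xy : x ≠ y := by rintro rfl; exact hb (𝒟.cr_self _)
  have key : ∀ z, 𝒟.T (z * 𝒟.cr x y) = 0 → z = 0 ∨ z = x ∨ z = y ∨ z = x + y := fun z hz => by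
    obtain ⟨c, c', rfl⟩ := hL.det0 x y z hb hz
    rcases two h2 c with rfl | rfl <;> rcases two h2 c' with rfl | rfl <;> simp
  rcases key w hw with rfl | rfl | rfl | rfl
  · exact absurd rfl w0
  · exact ⟨y, hy, y0, xy.symm, key⟩
  · exact ⟨x, hx, x0, xy, fun z hz => by have := key z hz; rw [add_comm]; tauto⟩
  · refine ⟨x, hx, x0, fun h => y0 (left_eq_add.1 h), fun z hz => ?_⟩
    have := key z hz
    rw [add_right_comm, CharTwo.add_self_eq_zero, zero_add]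
    tauto

theorem x0_sq (w : K) : (Pt.x0 w * Pt.x0 w : Pt 𝒟) = 1 := by
  apply Pt.ext <;> simp [Pt.x0, Pt.one_def, Pt.mul_v, Pt.mul_a, Pt.mul_b, Pt.mul_c, Pt.mul_d, Pt.mul_t, Fd.cr_zero,
    Fd.adj_zero, CharTwo.add_self_eq_zero]

theorem iv_x0 [Finite G] (h : St e) {w : K} (hw : w ≠ 0) : Iv (gS e) (gQ e) (e (Pt.x0 w)) where
  mem := ⟨_, rfl⟩
  norm := e_mem _
  out := by
    rintro ⟨p, hp, hpe⟩
    rw [h.inj hpe] at hp
    exact hw hp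
  sq := by rw [← map_mul, x0_sq, map_one]; exact one_mem _

omit [CharP K 2] in
theorem b_ne (h2 : Nat.card F = 2) {x : V F K} (x4 : x.2.2.1 = 0) (x5 : x.2.2.2 = 0) (h0 : x ≠ 0) (h1 : x ≠ l0) :
    x.2.1 ≠ 0 := fun hb => by
  obtain ⟨a, b, d, t⟩ := x
  simp only at x4 x5 hb
  subst x4 x5 hb
  rcases two h2 a with rfl | rfl
  · exact h0 rfl
  · exact h1 rfl

variable (e) in
/-- `BB` in `Q / Z` -/
def BV : Prop := ∀ g ∈ 𝒩(gQ e), ∀ y : V F K, y.2.2.1 = 0 → y.2.2.2 = 0 → (M e g y).2.2.1 = 0 → (M e g y).2.2.2 = 0 →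
  y = 0 ∨ M e g l0 = l0

theorem bv [Finite G] (hS : SET.{u}) (h : Fu e) (hD : 𝒟.D4) (h2 : Nat.card F = 2) : BV e := by
  intro g hg y y4 y5 u4 u5
  haveI := 𝒟.charF
  have h3 := h.toSt3
  have hs := h.toSt2
  by_contra hc
  push Not at hc
  obtain ⟨y0, gl⟩ := hc
  have y1 : y ≠ l0 := by
    rintro rfl
    rw [(M_l0 h3 h2 hg).resolve_left gl] at u5
    exact one_ne_zero u5
  have yb := b_ne h2 y4 y5 y0 y1
  generalize hu : M e g y = u at u4 u5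
  have hy : M e g⁻¹ u = y := by rw [← hu, M_inv hs h2 hg]
  have ub : u.2.1 ≠ 0 := by
    refine b_ne h2 u4 u5 ?_ ?_
    · rintro rfl
      exact y0 (hy.symm.trans (M_zero hs h2 (inv_mem hg)))
    · rintro rfl
      rcases M_l0 h3 h2 (inv_mem hg) with h1 | h1
      · exact y1 (hy.symm.trans h1)
      · rw [hy, y5] at h1; exact zero_ne_one h1
  obtain ⟨w', y', hw', -, hcr⟩ := h.ex2 hD _ yb
  have w0' : w' ≠ 0 := by rintro rfl; exact yb (by rw [← hcr, 𝒟.cr_comm, 𝒟.cr_zero])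
  have ht : g * e (Pt.x0 w') * g⁻¹ ∈ 𝒩(gQ e) := mul_mem (mul_mem hg (e_mem _)) (inv_mem hg)
  have Mt : ∀ x, M e (g * e (Pt.x0 w') * g⁻¹) x = M e g (M e (e (Pt.x0 w')) (M e g⁻¹ x)) := fun x => by
    rw [M_mul hs h2 (mul_mem hg (e_mem _)) (inv_mem hg), M_mul hs h2 hg (e_mem _)]
  have od := fun w (hw : w ≠ 0) => ((hS G _ _ _ (hs.essQ h.nQ)).od hg
    (fun hH => gl ((M_l0_iff hs h2 hg).1 hH.2)) (iv_x0 h.toSt hw) (iv_x0 h.toSt w0')).1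
  have tt : g * e (Pt.x0 w') * g⁻¹ * (g * e (Pt.x0 w') * g⁻¹) = 1 := by
    rw [show g * e (Pt.x0 w') * g⁻¹ * (g * e (Pt.x0 w') * g⁻¹) = g * (e (Pt.x0 w') * e (Pt.x0 w')) * g⁻¹ by group,
      ← map_mul, x0_sq, map_one, mul_one, mul_inv_cancel]
  generalize g * e (Pt.x0 w') * g⁻¹ = t at ht Mt od tt
  have t2 : ∀ x, M e t (M e t x) = x := fun x => by rw [← M_mul hs h2 ht ht, tt, M_one h.toSt]
  have tu : M e t u = u := by rw [Mt, hy, M_x0_B h.toSt y4 y5 hw', hu]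
  have I5 : ∀ {x u' : V F K}, u'.2.2.2 = 0 → D e x → bet 𝒟 x u' = 1 → x.2.2.2 = 1 := fun {x u'} h5 hx hb =>
    (D.t h3 h2 hx).resolve_left fun h1 => by rw [h1, bet_l0, h5] at hb; exact zero_ne_one hb
  have bu : ∀ {x : V F K}, x.2.2.2 = 1 → bet 𝒟 x u = u.1 + 𝒟.T (x.2.2.1 * u.2.1) := fun {x} h5 => by
    simp [bet, h5, u4, u5]
  have It : ∀ {x : V F K}, bet 𝒟 x u = 1 → bet 𝒟 (M e t x) u = 1 := fun {x} hb => by
    rw [← hb, ← M_bet hs h2 ht x u, tu]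
  have nf : ∀ {x : V F K}, D e x → bet 𝒟 x u = 1 → (M e t x).2.2.1 ≠ x.2.2.1 := fun {x} hx hb hd => by
    have h1 := D.d h3 h2 (D.M hs h2 ht hx) hx (I5 u5 (D.M hs h2 ht hx) (It hb)) (I5 u5 hx hb) hd
    have h4 := congrArg (M e g⁻¹) h1
    rw [Mt, M_inv hs h2 hg] at h4
    have h5 := I5 y5 (D.M hs h2 (inv_mem hg) hx) (by rw [← hy, M_bet hs h2 (inv_mem hg), hb])
    have h6 := M_x0_d h.toSt w' _ h5
    rw [h4] at h6
    exact w0' (left_eq_add.1 h6)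
  have IU : ∀ {x x' : V F K}, D e x → D e x' → bet 𝒟 x u = 1 → bet 𝒟 x' u = 1 →
      𝒟.T ((x.2.2.1 + x'.2.2.1) * u.2.1) = 0 := fun {x x'} hx hx' hb hb' => by
    rw [bu (I5 u5 hx hb)] at hb
    rw [bu (I5 u5 hx' hb')] at hb'
    rw [add_mul, map_add, add_left_cancel (hb.trans hb'.symm), CharTwo.add_self_eq_zero]
  obtain ⟨d₀, hd₀⟩ := h.surj _ ub (u.1 + 1)
  obtain ⟨x₀, D0, t0, rfl⟩ := D.ex h h2 d₀
  have b0 : bet 𝒟 x₀ u = 1 := by rw [bu t0, mul_comm, hd₀, ← add_assoc, CharTwo.add_self_eq_zero, zero_add]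
  have D1 := D.M hs h2 ht D0
  have b1 := It b0
  have t1 := I5 u5 D1 b1
  obtain ⟨w₁, hw₁, w10, w11, key⟩ := U4 h.toLA hD h2 ub (IU D1 D0 b1 b0)
    fun h0 => nf D0 b0 (CharTwo.add_eq_zero.1 h0)
  have D2 := D.M hs h2 (e_mem (Pt.x0 w₁)) D1
  have d2 := M_x0_d h.toSt w₁ _ t1
  have b2 : bet 𝒟 (M e (e (Pt.x0 w₁)) (M e t x₀)) u = 1 := by
    rw [← b1, ← M_bet hs h2 (e_mem (Pt.x0 w₁)) (M e t x₀) u, M_x0_B h.toSt u4 u5 hw₁]
  generalize hx₂ : M e (e (Pt.x0 w₁)) (M e t x₀) = x₂ at D2 d2 b2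
  have D3 := D.M hs h2 ht D2
  have b3 := It b2
  have t3 := I5 u5 D3 b3
  have n20 : x₂ ≠ x₀ := by
    rintro rfl
    exact w11 (by grind)
  have back : M e (e (Pt.x0 w₁)) (M e t x₂) = x₀ := by
    rcases key _ (IU D3 D0 b3 b0) with h1 | h1 | h1 | h1
    · have h4 := congrArg (M e t) (D.d h3 h2 D3 D0 t3 t0 (CharTwo.add_eq_zero.1 h1))
      rw [t2] at h4
      rw [h4] at d2
      exact absurd (left_eq_add.1 d2) w10
    · have h4 := congrArg (M e t) (D.d h3 h2 D3 D1 t3 t1 (add_right_cancel h1))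
      rw [t2, t2] at h4
      exact absurd h4 n20
    · refine D.d h3 h2 (D.M hs h2 (e_mem _) D3) D0 ((M_x0_t h.toSt _ _).trans t3) t0 ?_
      rw [M_x0_d h.toSt _ _ t3]
      grind
    · exact absurd (by grind) (nf D2 b2)
  obtain ⟨m, ⟨k, rfl⟩, hm⟩ := od w₁ w10
  have hh : e (Pt.x0 w₁) * t ∈ 𝒩(gQ e) := mul_mem (e_mem _) ht
  have ev : ∀ k : ℕ, M e ((e (Pt.x0 w₁) * t) ^ (2 * k)) x₀ = x₀ := fun k => by
    induction k with
    | zero => rw [mul_zero, pow_zero, M_one h.toSt]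
    | succ k ih =>
      rw [mul_add, mul_one, pow_succ', pow_succ', M_mul hs h2 hh (mul_mem hh (pow_mem hh _)),
        M_mul hs h2 hh (pow_mem hh _), ih, M_mul hs h2 (e_mem _) ht, M_mul hs h2 (e_mem _) ht, hx₂, back]
  have h1 := M_Q h.toSt hm x₀
  rw [pow_succ', M_mul hs h2 hh (pow_mem hh _), ev, M_mul hs h2 (e_mem _) ht, hx₂] at h1
  exact n20 h1

theorem bb_of [Finite G] (h : St2 e) (h2 : Nat.card F = 2) (hv : BV e) : BB e := by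
  rintro g hg _ ⟨p, hp, rfl⟩ ⟨q, hq, hqe⟩
  have h1 : M e g⁻¹ (bar p) = bar q := by
    rw [← bar_ph h h2 (inv_mem hg) hp.1, ph_eq h.toSt (q := q) (by rw [hqe, inv_inv])]
  rcases hv g⁻¹ (inv_mem hg) (bar p) hp.2.1 hp.2.2 (by rw [h1]; exact hq.2.1) (by rw [h1]; exact hq.2.2) with h0 | h0
  · simp only [bar, Prod.mk_eq_zero] at h0
    exact Or.inl ⟨p, ⟨hp.1, h0⟩, rfl⟩
  · exact Or.inr (inv_mem_iff.1 ((M_l0_iff h h2 (inv_mem hg)).2 h0))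

theorem bv_of [Finite G] (h : St2 e) (h2 : Nat.card F = 2) (hb : BB e) : BV e := by
  intro g hg y y4 y5 u4 u5
  obtain ⟨h1, h1'⟩ := ph_spec h.toSt hg (lift_v (𝒟 := 𝒟) y)
  rcases hb g⁻¹ (inv_mem hg) _ (mem_map_of_mem e (show lift 𝒟 y ∈ Pt.B 𝒟 from ⟨rfl, y4, y5⟩))
    ⟨_, ⟨h1', u4, u5⟩, by rw [h1, inv_inv]⟩ with ⟨q, hq, hqe⟩ | h0
  · rw [h.inj hqe] at hq
    exact Or.inl (Prod.ext hq.2.1 (Prod.ext hq.2.2.1 (Prod.ext y4 y5)))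
  · exact Or.inr ((M_l0_iff h h2 hg).1 (inv_mem_iff.1 h0))

theorem cover [Finite G] (h : Fu e) (h2 : Nat.card F = 2) (hv : BV e) {x : V F K} (hx : kap 𝒟 x = 0) :
    ∃ g ∈ 𝒩(gQ e), (M e g⁻¹ x).2.2.1 = 0 ∧ (M e g⁻¹ x).2.2.2 = 0 := by
  haveI := 𝒟.charF
  haveI := h.finK
  haveI : Finite F := Nat.finite_of_card_ne_zero (by omega)
  have h3 := h.toSt3
  have hs := h.toSt2
  by_cases h0 : x.2.2 = 0
  · refine ⟨1, one_mem _, ?_⟩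
    rw [inv_one, M_one h.toSt, h0]
    exact ⟨rfl, rfl⟩
  have hk : ∀ v : K, ∃ k ∈ 𝒩(gQ e), (M e k l0).2.2.2 = 1 ∧ (M e k l0).2.2.1 = v := fun v => by
    obtain ⟨_, ⟨k, hk, rfl⟩, h1⟩ := D.ex h h2 v
    exact ⟨k, hk, h1⟩
  choose k hk k5 k4 using hk
  have hw : ∀ v, ∃ s : K × F, (M e (k v) (s.2, s.1, 0, 0)).2.2 = x.2.2 := fun v => by
    refine Finite.surjective_of_injective (f := fun s : K × F => (M e (k v) (s.2, s.1, 0, 0)).2.2)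
      (fun s s' hss => ?_) _
    have h1 : M e (k v) ((s.2, s.1, 0, 0) + (s'.2, s'.1, 0, 0)) = _ := M_add hs h2 (hk v) _ _
    have h4 : (M e (k v) ((s.2, s.1, 0, 0) + (s'.2, s'.1, 0, 0))).2.2 = 0 := by
      rw [h1, Prod.snd_add, Prod.snd_add, show (M e (k v) (s.2, s.1, 0, 0)).2.2 = _ from hss]
      exact Prod.ext (CharTwo.add_self_eq_zero _) (CharTwo.add_self_eq_zero _)
    rcases hv _ (hk v) _ (by simp) (by simp) (congrArg Prod.fst h4) (congrArg Prod.snd h4) with h5 | h5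
    · simp only [Prod.mk_add_mk, Prod.mk_eq_zero, CharTwo.add_eq_zero] at h5
      exact Prod.ext h5.2.1 h5.1
    · have := k5 v
      rw [h5] at this
      exact absurd this zero_ne_one
  choose s hs' using hw
  obtain ⟨f, hf⟩ : ∃ f : V F K → K, ∀ y y', y.2.2 = x.2.2 → y'.2.2 = x.2.2 → kap 𝒟 y = 0 → kap 𝒟 y' = 0 →
      f y = f y' → y = y' := by
    rcases two h2 x.2.2.2 with h5 | h5
    · obtain ⟨r, hr⟩ := h.surj x.2.2.1 (fun h4 => h0 (Prod.ext h4 h5)) 1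
      refine ⟨fun y => y.2.1 + y.1 • r, fun y y' e1 e2 k1 k2 hf => ?_⟩
      simp only [kap, e1, e2, h5, zero_mul, zero_add] at k1 k2 hf
      have h1 := congrArg (fun z => 𝒟.T (x.2.2.1 * z)) hf
      simp only [mul_add, map_add, k1, k2, zero_add, mul_smul_comm, map_smul, hr, smul_eq_mul, mul_one] at h1
      rw [h1] at hf
      exact Prod.ext h1 (Prod.ext (add_right_cancel hf) (e1.trans e2.symm))
    · refine ⟨fun y => y.2.1, fun y y' e1 e2 k1 k2 hf => ?_⟩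
      simp only [kap, e1, e2, h5, one_mul] at k1 k2 hf
      rw [hf] at k1
      exact Prod.ext (add_right_cancel (k1.trans k2.symm)) (Prod.ext hf (e1.trans e2.symm))
  have kw : ∀ v, kap 𝒟 (M e (k v) ((s v).2, (s v).1, 0, 0)) = 0 := fun v => by rw [M_kap hs h2 (hk v)]; simp [kap]
  obtain ⟨v, hv'⟩ := Finite.surjective_of_injective (f := fun v => f (M e (k v) ((s v).2, (s v).1, 0, 0)))
    (fun v v' hvv => by
      have h1 := hf _ _ (hs' v) (hs' v') (kw v) (kw v') hvv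
      have h4 : M e ((k v')⁻¹ * k v) ((s v).2, (s v).1, 0, 0) = ((s v').2, (s v').1, 0, 0) := by
        rw [M_mul hs h2 (inv_mem (hk v')) (hk v), h1, M_inv hs h2 (hk v')]
      rcases hv _ (mul_mem (inv_mem (hk v')) (hk v)) _ rfl rfl (by rw [h4]) (by rw [h4]) with h5 | h5
      · have h6 := hs' v
        rw [h5, M_zero hs h2 (hk v)] at h6
        exact absurd h6.symm h0
      · have h6 := congrArg (M e (k v')) h5
        rw [M_mul hs h2 (inv_mem (hk v')) (hk v), M_inv' hs h2 (hk v')] at h6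
        rw [← k4 v, h6, k4]) (f x)
  have h1 := hf _ _ (hs' v) rfl (kw v) hx hv'
  refine ⟨k v, hk v, ?_⟩
  rw [← h1, M_inv hs h2 (hk v)]
  exact ⟨rfl, rfl⟩

end Q1x

open Q1x

theorem q1' (hS : SET.{u}) : Q1.{u} := by
  intro G _ _ F K _ _ _ _ 𝒟 e h hD h2
  have h3 := h.toSt3
  have hs := h.toSt2
  refine ⟨bb_of hs h2 (bv hS h hD h2), ?_⟩
  obtain ⟨_, ⟨k, hk, rfl⟩, k5, -⟩ := D.ex h h2 0
  obtain ⟨h1, h1'⟩ := ph_spec h.toSt hk (lift_v (𝒟 := 𝒟) l0)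
  have nA : e (ph e k (lift 𝒟 l0)) ∉ gA e := by
    rintro ⟨q, hq, hqe⟩
    rw [h.inj hqe] at hq
    exact zero_ne_one (hq.2.symm.trans k5)
  refine ⟨e (ph e k (lift 𝒟 l0)), ⟨_, h1', rfl⟩, ⟨fun h0 => nA (h0 ▸ one_mem _), k, hk, lift 𝒟 l0,
    ⟨rfl, rfl, rfl, rfl⟩, by rw [h1]; group⟩, nA, ?_⟩
  rintro y ⟨-, g, hg, p, hp, hpe⟩
  obtain ⟨h4, h4'⟩ := ph_spec h.toSt hg hp.1
  have hy : y = e (ph e g p) := by rw [h4, hpe]; group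
  have hb := bar_ph hs h2 hg hp.1
  rcases bar_L h2 hp with h0 | h0
  · exact Or.inl ⟨_, mem_L_of h4' (Or.inl (by rw [hb, h0, M_zero hs h2 hg])), hy.symm⟩
  rw [h0] at hb
  rcases M_l0 h3 h2 hg with h5 | h5
  · exact Or.inl ⟨_, mem_L_of h4' (Or.inr (hb.trans h5)), hy.symm⟩
  have h6 := D.d h3 h2 ⟨g, hg, rfl⟩ (D.M hs h2 (e_mem (Pt.x0 ((M e k l0).2.2.1 + (M e g l0).2.2.1))) ⟨k, hk, rfl⟩) h5
    ((M_x0_t h.toSt _ _).trans k5) (by rw [M_x0_d h.toSt _ _ k5, ← add_assoc, CharTwo.add_self_eq_zero, zero_add])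
  generalize (M e k l0).2.2.1 + (M e g l0).2.2.1 = v at h6
  obtain ⟨c, hc⟩ := eq_mul_x3 h4' (conj_v (Pt.x0 v) h1') (by
    rw [hb, h6, ← ph_e h.toSt, bar_ph hs h2 (e_mem _) h1']; rfl)
  exact Or.inr ⟨v, e (Pt.x3 c), ⟨_, ⟨rfl, rfl, rfl, rfl, rfl⟩, rfl⟩, by rw [hy, hc]; simp⟩

theorem q2' (hQ : Q1.{u}) : Q2.{u} := by
  intro G _ _ F K _ _ _ _ 𝒟 e h hD h2
  rintro _ ⟨p, hp, rfl⟩ hpp
  have hs := h.toSt2
  have hk : kap 𝒟 (bar p) = 0 := by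
    rw [← map_mul, sq_kap hp, ← map_one e] at hpp
    exact x3_inj ((h.inj hpp).trans x3_zero.symm)
  obtain ⟨g, hg, h4, h5⟩ := cover h h2 (bv_of hs h2 (hQ G F K 𝒟 e h hD h2).1) hk
  obtain ⟨h1, h1'⟩ := ph_spec h.toSt (inv_mem hg) hp
  rw [← bar_ph hs h2 (inv_mem hg) hp] at h4 h5
  exact Or.inr (Or.inr ⟨g, hg, _, ⟨h1', h4, h5⟩, by rw [h1, inv_inv]⟩)

end CL.SY
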